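import Mathlib
import Cfsg.Prelude.Def_Characters
import Cfsg.Prelude.Def_Blocks

/-!
# S4504 (Brauer 1942: faithful character of degree `(p - 1) / 2`) -- definitions (helper8)

`S4504Grp p x`: the group-level hypotheses after the reduction to the normal closure `H` of a
Sylow `p`-subgroup `⟨x⟩`.  `S4504Hyp p x χ`: the same with the faithful irreducible character.
`S4504Tab p d x χ`: the block data at the boundary (`d = χ(1)`, `p = 2 d + 1`).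
-/

set_option autoImplicit false
open Cfsg
open scoped ComplexConjugate

universe u

namespace Cfsg.Agent.Helper8

/-- Group-level hypotheses: `x` of order `p`, `p² ∤ |H|`, every normal subgroup containing `x` is
everything, every normal subgroup not containing `x` is central, `⟨x⟩` is not normal. -/
structure S4504Grp {H : Type u} [Group H] (p : ℕ) (x : H) : Prop where
  hx : orderOf x = p
  hsq : ¬ p ^ 2 ∣ Nat.card H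
  htop : ∀ L : Subgroup H, L.Normal → x ∈ L → L = ⊤
  hcen : ∀ L : Subgroup H, L.Normal → x ∉ L → L ≤ Subgroup.center H
  hnn : ¬ (Subgroup.zpowers x).Normal

/-- The hypotheses with the faithful irreducible character of degree `(p - 1) / 2`. -/
structure S4504Hyp {H : Type u} [Group H] (p : ℕ) (x : H) (χ : H → ℂ) : Prop where
  grp : S4504Grp p x
  hχ : Cfsg.IsIrrCharacter H χ
  hfaith : ∀ g : H, χ g = χ 1 → g = 1
  hdeg : 2 * Cfsg.charDegree χ + 1 = p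

/-- The block data at the boundary: `χ₂` the `p`-conjugate of `χ`; `X1` / `X2` the nontrivial
non-exceptional characters of the principal block of sign `+1` / `-1`; `ψ₁, ψ₂` the exceptional
characters of the principal block. -/
structure S4504Tab {H : Type u} [Group H] (p d : ℕ) (x : H) (χ : H → ℂ) where
  χ₂ : Cfsg.IrrCharacter H
  X1 : Finset (Cfsg.IrrCharacter H)
  X2 : Finset (Cfsg.IrrCharacter H)
  ψ₁ : Cfsg.IrrCharacter H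
  ψ₂ : Cfsg.IrrCharacter H
  /-- `C_H(x) = ⟨x⟩ Z(H)` -/
  hcent : ∀ g : H, g * x = x * g → ∃ i : ℕ, ∃ z ∈ Subgroup.center H, g = x ^ i * z
  /-- `|N_H(⟨x⟩)| = p d |Z(H)|` -/
  hnormcard : Nat.card (Subgroup.normalizer ((Subgroup.zpowers x : Subgroup H) : Set H))
    = p * d * Nat.card (Subgroup.center H)
  hconj : ∀ b : ℕ, ¬ p ∣ b → (χ (x ^ b) = χ x ↔ ∃ n : H, n * x * n⁻¹ = x ^ b)
  hreg₂ : ∀ g : H, ¬ p ∣ orderOf g → (χ₂ : H → ℂ) g = χ g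
  hsum : ∀ b : ℕ, ¬ p ∣ b → χ (x ^ b) + (χ₂ : H → ℂ) (x ^ b) = -1
  hdiff : ∀ b : ℕ, ¬ p ∣ b → (χ (x ^ b) - (χ₂ : H → ℂ) (x ^ b)) ^ 2 = (-1) ^ d * (p : ℂ)
  hhalf : ((Finset.range p).filter (fun b => b ≠ 0 ∧ χ (x ^ b) = χ x)).card = d
  hswap : ∀ b : ℕ, ¬ p ∣ b → χ (x ^ b) ≠ χ x →
    χ (x ^ b) = (χ₂ : H → ℂ) x ∧ (χ₂ : H → ℂ) (x ^ b) = χ x
  hkeep : ∀ b : ℕ, ¬ p ∣ b → χ (x ^ b) = χ x → (χ₂ : H → ℂ) (x ^ b) = (χ₂ : H → ℂ) x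
  /-- among the characters with the central character of `χ`, only `χ, χ₂` are irrational on
  `⟨x⟩ \ 1` -/
  honly : ∀ ξ : Cfsg.IrrCharacter H,
    (∀ z ∈ Subgroup.center H, (ξ : H → ℂ) z * χ 1 = χ z * (ξ : H → ℂ) 1) →
    (ξ : H → ℂ) ≠ χ → ξ ≠ χ₂ →
    (ξ : H → ℂ) x = 0 ∨ ∀ b : ℕ, ¬ p ∣ b → (ξ : H → ℂ) (x ^ b) = (ξ : H → ℂ) x
  hX1deg : ∀ ξ ∈ X1, Cfsg.charDegree (ξ : H → ℂ) = p + 1
  hX1val : ∀ ξ ∈ X1, ∀ b : ℕ, ¬ p ∣ b → (ξ : H → ℂ) (x ^ b) = 1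
  hX1Z : ∀ ξ ∈ X1, ∀ z ∈ Subgroup.center H, (ξ : H → ℂ) z = (ξ : H → ℂ) 1
  hX2deg : ∀ ξ ∈ X2, Cfsg.charDegree (ξ : H → ℂ) = p - 1
  hX2val : ∀ ξ ∈ X2, ∀ b : ℕ, ¬ p ∣ b → (ξ : H → ℂ) (x ^ b) = -1
  hX2Z : ∀ ξ ∈ X2, ∀ z ∈ Subgroup.center H, (ξ : H → ℂ) z = (ξ : H → ℂ) 1
  hX1card : 2 * X1.card + 1 + (if Even d then 1 else 0) = d
  hψdeg : Cfsg.charDegree (ψ₁ : H → ℂ) = if Even d then d + 1 else d
  hψne : ψ₁ ≠ ψ₂
  hψreg : ∀ g : H, ¬ p ∣ orderOf g → (ψ₂ : H → ℂ) g = (ψ₁ : H → ℂ) g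
  hψZ : ∀ z ∈ Subgroup.center H, (ψ₁ : H → ℂ) z = (ψ₁ : H → ℂ) 1
  hψx : (ψ₁ : H → ℂ) x + (ψ₂ : H → ℂ) x = (-1) ^ d
  hψsum₁ : ∑ b ∈ Finset.range p, (ψ₁ : H → ℂ) (x ^ b) = if Even d then (p : ℂ) else 0
  hψsum₂ : ∑ b ∈ Finset.range p, (ψ₂ : H → ℂ) (x ^ b) = if Even d then (p : ℂ) else 0
  /-- every other irreducible character trivial on the centre vanishes at `x` -/
  hcomplete : ∀ ξ : Cfsg.IrrCharacter H,
    (∀ z ∈ Subgroup.center H, (ξ : H → ℂ) z = (ξ : H → ℂ) 1) →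
    (ξ : H → ℂ) ≠ (fun _ => 1) → ξ ∉ X1 → ξ ∉ X2 → ξ ≠ ψ₁ → ξ ≠ ψ₂ → (ξ : H → ℂ) x = 0
  /-- `χ conj χ = 1 + ∑ X1 (+ ψ₁ if d is even)` -/
  hdec₁ : ∀ g : H, χ g * conj (χ g)
    = 1 + ∑ ξ ∈ X1, (ξ : H → ℂ) g + (if Even d then (ψ₁ : H → ℂ) g else 0)
  /-- `χ conj χ₂ = ∑ X2 (+ ψ if d is odd)`, on `p`-regular elements -/
  hdec₂ : ∀ g : H, ¬ p ∣ orderOf g → χ g * conj (χ g)
    = ∑ ξ ∈ X2, (ξ : H → ℂ) g + (if Even d then 0 else (ψ₁ : H → ℂ) g)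

end Cfsg.Agent.Helper8
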