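import Mathlib
import Cfsg.Agent.Helper95.SpBNDefs

/-!
# Helper8: piece WGEN of the CALL S2545 (helper95).

The hyperoctahedral group (permutations of `Fin m ⊕ Fin m` commuting with `tauP`) is generated
by the simple reflections `sigP j`.
-/

set_option autoImplicit false

namespace Cfsg.Agent.Helper8.SpBN

open Matrix Cfsg.Agent.Helper13 Cfsg.Agent.Helper95.SpBN

variable {m : ℕ}

/-- The short simple reflections are diagonal permutations. -/
theorem sigP_short (j : Fin m) (h : (j : ℕ) + 1 < m) :
    sigP j = Equiv.Perm.sumCongr (Equiv.swap j ⟨(j : ℕ) + 1, h⟩) (Equiv.swap j ⟨(j : ℕ) + 1, h⟩) := by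
  have h1 : Equiv.Perm.sumCongr (Equiv.swap j ⟨(j : ℕ) + 1, h⟩) (Equiv.swap j ⟨(j : ℕ) + 1, h⟩)
      = Equiv.Perm.sumCongr (Equiv.swap j ⟨(j : ℕ) + 1, h⟩) (1 : Equiv.Perm (Fin m))
        * Equiv.Perm.sumCongr (1 : Equiv.Perm (Fin m)) (Equiv.swap j ⟨(j : ℕ) + 1, h⟩) := by
    rw [Equiv.Perm.sumCongr_mul, mul_one, one_mul]
  rw [h1, Equiv.Perm.sumCongr_swap_one, Equiv.Perm.sumCongr_one_swap]
  unfold sigP ra rb
  rw [if_pos h, dif_pos h, tauP_inl, tauP_inl]

/-- The long simple reflection. -/
theorem sigP_long (j : Fin m) (h : ¬ (j : ℕ) + 1 < m) :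
    sigP j = Equiv.swap (Sum.inl j) (Sum.inr j) := by
  unfold sigP ra rb
  rw [if_neg h, dif_neg h]

/-- Diagonal permutations lie in the group generated by the simple reflections. -/
theorem hat_mem (p : Equiv.Perm (Fin m)) :
    Equiv.Perm.sumCongr p p ∈ Subgroup.closure (Set.range (sigP (m := m))) := by
  cases m with
  | zero =>
    have h1 : Equiv.Perm.sumCongr p p = 1 :=
      Equiv.ext fun x => by rcases x with i | i <;> exact i.elim0
    rw [h1]
    exact Subgroup.one_mem _
  | succ n =>
    have hp : p ∈ Submonoid.closure (Set.range fun i : Fin n => Equiv.swap i.castSucc i.succ) := by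
      rw [Equiv.Perm.mclosure_swap_castSucc_succ]
      exact Submonoid.mem_top p
    induction hp using Submonoid.closure_induction with
    | mem x hx =>
      obtain ⟨i, rfl⟩ := hx
      apply Subgroup.subset_closure
      refine ⟨i.castSucc, ?_⟩
      have hlt : ((i.castSucc : Fin (n + 1)) : ℕ) + 1 < n + 1 := by
        have := i.2
        simp
      have hs : (⟨((i.castSucc : Fin (n + 1)) : ℕ) + 1, hlt⟩ : Fin (n + 1)) = i.succ :=
        Fin.ext (by simp)
      rw [sigP_short i.castSucc hlt, hs]
    | one =>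
      rw [Equiv.Perm.sumCongr_one]
      exact Subgroup.one_mem _
    | mul x y hx hy ihx ihy =>
      rw [← Equiv.Perm.sumCongr_mul]
      exact Subgroup.mul_mem _ ihx ihy

/-- The sign changes lie in the group generated by the simple reflections. -/
theorem c_mem (i : Fin m) :
    Equiv.swap (Sum.inl i : Fin m ⊕ Fin m) (Sum.inr i)
      ∈ Subgroup.closure (Set.range (sigP (m := m))) := by
  cases m with
  | zero => exact i.elim0
  | succ n =>
    have hlast : sigP (Fin.last n) = Equiv.swap (Sum.inl (Fin.last n)) (Sum.inr (Fin.last n)) :=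
      sigP_long (Fin.last n) (by simp)
    have h1 : Equiv.swap (Sum.inl (Fin.last n) : Fin (n + 1) ⊕ Fin (n + 1)) (Sum.inr (Fin.last n))
        ∈ Subgroup.closure (Set.range (sigP (m := n + 1))) := by
      rw [← hlast]
      exact Subgroup.subset_closure ⟨Fin.last n, rfl⟩
    have h2 := hat_mem (Equiv.swap i (Fin.last n))
    have h3 : Equiv.swap (Sum.inl i : Fin (n + 1) ⊕ Fin (n + 1)) (Sum.inr i)
        = Equiv.Perm.sumCongr (Equiv.swap i (Fin.last n)) (Equiv.swap i (Fin.last n))
          * Equiv.swap (Sum.inl (Fin.last n)) (Sum.inr (Fin.last n))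
          * (Equiv.Perm.sumCongr (Equiv.swap i (Fin.last n)) (Equiv.swap i (Fin.last n)))⁻¹ := by
      rw [← Equiv.swap_apply_apply]
      simp
    rw [h3]
    exact Subgroup.mul_mem _ (Subgroup.mul_mem _ h2 h1) (Subgroup.inv_mem _ h2)

/-- The sign changes commute with `tauP`. -/
theorem c_comm (i : Fin m) (b : Fin m ⊕ Fin m) :
    Equiv.swap (Sum.inl i : Fin m ⊕ Fin m) (Sum.inr i) (tauP m b)
      = tauP m (Equiv.swap (Sum.inl i : Fin m ⊕ Fin m) (Sum.inr i) b) := by
  have e : tauP m * Equiv.swap (Sum.inl i : Fin m ⊕ Fin m) (Sum.inr i) * (tauP m)⁻¹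
      = Equiv.swap (Sum.inl i : Fin m ⊕ Fin m) (Sum.inr i) := by
    rw [← Equiv.swap_apply_apply, tauP_inl, tauP_inr, Equiv.swap_comm]
  have h := congrArg (fun f : Equiv.Perm (Fin m ⊕ Fin m) => f (tauP m b)) e
  simp only [Equiv.Perm.mul_apply] at h
  have h5 : (tauP m)⁻¹ (tauP m b) = b := by
    rw [← Equiv.Perm.mul_apply, inv_mul_cancel, Equiv.Perm.one_apply]
  rw [h5] at h
  exact h.symm

-- === PIECE WGEN ===
theorem p_WGEN (π : Equiv.Perm (Fin m ⊕ Fin m)) (hπ : ∀ b, π (tauP m b) = tauP m (π b)) :
    π ∈ Subgroup.closure (Set.range (sigP (m := m))) := by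
  suffices h : ∀ n : ℕ, ∀ π : Equiv.Perm (Fin m ⊕ Fin m), (∀ b, π (tauP m b) = tauP m (π b)) →
      (Finset.univ.filter (fun i : Fin m => (π (Sum.inl i)).isRight = true)).card = n →
      π ∈ Subgroup.closure (Set.range (sigP (m := m))) from h _ π hπ rfl
  intro n
  induction n with
  | zero =>
    intro π hπ hN
    rw [Finset.card_eq_zero, Finset.filter_eq_empty_iff] at hN
    have hmaps : Set.MapsTo π (Set.range Sum.inl) (Set.range Sum.inl) := by
      rintro _ ⟨i, rfl⟩
      have h1 := hN (Finset.mem_univ i)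
      rcases hx : π (Sum.inl i) with k | k
      · exact ⟨k, rfl⟩
      · rw [hx] at h1
        simp at h1
    obtain ⟨⟨p₁, p₂⟩, hp⟩ := Equiv.Perm.mem_sumCongrHom_range_of_perm_mapsTo_inl hmaps
    have h12 : p₂ = p₁ := by
      ext i
      have h1 := hπ (Sum.inl i)
      rw [← hp] at h1
      simp only [Equiv.Perm.sumCongrHom_apply, tauP_inl, Equiv.Perm.sumCongr_apply, Sum.map_inr,
        Sum.map_inl] at h1
      rw [Sum.inr.injEq] at h1
      rw [h1]
    subst h12
    rw [← hp]
    exact hat_mem p₂
  | succ n ih =>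
    intro π hπ hN
    have hne : (Finset.univ.filter
        (fun i : Fin m => (π (Sum.inl i)).isRight = true)).Nonempty := by
      rw [← Finset.card_pos, hN]
      omega
    obtain ⟨i, hi⟩ := hne
    have hi' : (π (Sum.inl i)).isRight = true := (Finset.mem_filter.mp hi).2
    have h' : π * Equiv.swap (Sum.inl i : Fin m ⊕ Fin m) (Sum.inr i)
        ∈ Subgroup.closure (Set.range (sigP (m := m))) := by
      apply ih
      · intro b
        rw [Equiv.Perm.mul_apply, Equiv.Perm.mul_apply, c_comm, hπ]
      · have hf : Finset.univ.filter (fun k : Fin m =>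
            ((π * Equiv.swap (Sum.inl i : Fin m ⊕ Fin m) (Sum.inr i)) (Sum.inl k)).isRight = true)
            = (Finset.univ.filter
              (fun k : Fin m => (π (Sum.inl k)).isRight = true)).erase i := by
          ext k
          rw [Finset.mem_filter, Finset.mem_erase, Finset.mem_filter]
          simp only [Finset.mem_univ, true_and, Equiv.Perm.mul_apply]
          by_cases hk : k = i
          · subst hk
            rw [Equiv.swap_apply_left]
            have h2 : π (Sum.inr k) = tauP m (π (Sum.inl k)) := by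
              rw [← hπ, tauP_inl]
            rw [h2]
            rcases hx : π (Sum.inl k) with k' | k'
            · rw [hx] at hi'
              simp at hi'
            · simp [tauP_inr]
          · rw [Equiv.swap_apply_of_ne_of_ne (by simpa using hk) (by simp)]
            simp [hk]
        rw [hf, Finset.card_erase_of_mem hi, hN]
        rfl
    have h4 : π = (π * Equiv.swap (Sum.inl i : Fin m ⊕ Fin m) (Sum.inr i))
        * Equiv.swap (Sum.inl i : Fin m ⊕ Fin m) (Sum.inr i) := by
      rw [mul_assoc, Equiv.swap_mul_self, mul_one]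
    rw [h4]
    exact Subgroup.mul_mem _ h' (c_mem i)

end Cfsg.Agent.Helper8.SpBN
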