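/-
helper8: CALL S2314 (helper40), piece SYL: the Sylow step (pure Mathlib).
-/
import Mathlib

set_option autoImplicit false
set_option linter.unusedVariables false

namespace Cfsg.Agent.Helper8.UCSYL

/-- SYL (pure Mathlib): the Sylow step. -/
theorem sylow_step {Γ : Type*} [Group Γ] [Finite Γ] (p : ℕ) [Fact p.Prime]
    (U V PJ UJ Y : Subgroup Γ) (hU : U ≤ PJ) (hUJ : UJ ≤ U)
    (hnorm : ∀ g ∈ PJ, ∀ u ∈ UJ, g * u * g⁻¹ ∈ UJ) (hYP : Y ≤ PJ) (hYV : Y ≤ V)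
    (hUV : U ⊓ V = ⊥) (hVp : IsPGroup p V)
    (hcard : Nat.card U ≤ Nat.card UJ * Nat.card Y)
    (hsyl : ∀ Q : Subgroup Γ, Q ≤ PJ → IsPGroup p Q → ∃ c ∈ PJ, ∀ x ∈ Q, c⁻¹ * x * c ∈ U) :
    ∃ c ∈ PJ, ∀ u ∈ U, c⁻¹ * u * c ∈ U → u ∈ UJ := by
  obtain ⟨c, hcP, hc⟩ := hsyl Y hYP (hVp.to_le hYV)
  refine ⟨c, hcP, ?_⟩
  -- the map `(a, y) ↦ c⁻¹ (a y) c` from `UJ × Y` into `U`
  have hmem : ∀ (a : UJ) (y : Y), c⁻¹ * ((a : Γ) * (y : Γ)) * c ∈ U := by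
    intro a y
    have h1 : c⁻¹ * (a : Γ) * c ∈ UJ := by
      have := hnorm c⁻¹ (PJ.inv_mem hcP) a a.2
      simpa using this
    have h2 : c⁻¹ * (y : Γ) * c ∈ U := hc y y.2
    have h3 : c⁻¹ * ((a : Γ) * (y : Γ)) * c = (c⁻¹ * (a : Γ) * c) * (c⁻¹ * (y : Γ) * c) := by
      group
    rw [h3]
    exact U.mul_mem (hUJ h1) h2
  let φ : UJ × Y → U := fun ay => ⟨c⁻¹ * ((ay.1 : Γ) * (ay.2 : Γ)) * c, hmem ay.1 ay.2⟩
  have hinj : Function.Injective φ := by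
    rintro ⟨a, y⟩ ⟨a', y'⟩ h
    have h1 : c⁻¹ * ((a : Γ) * (y : Γ)) * c = c⁻¹ * ((a' : Γ) * (y' : Γ)) * c :=
      congrArg Subtype.val h
    have h2 : (a : Γ) * (y : Γ) = (a' : Γ) * (y' : Γ) := by
      have := congrArg (fun z => c * z * c⁻¹) h1
      simpa [mul_assoc] using this
    have h3 : (a' : Γ)⁻¹ * (a : Γ) = (y' : Γ) * (y : Γ)⁻¹ := by
      have : (a : Γ) = (a' : Γ) * (y' : Γ) * (y : Γ)⁻¹ := by
        rw [← h2]; group
      rw [this]; group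
    have h4 : (a' : Γ)⁻¹ * (a : Γ) ∈ U ⊓ V := by
      refine ⟨hUJ (UJ.mul_mem (UJ.inv_mem a'.2) a.2), ?_⟩
      rw [h3]
      exact hYV (Y.mul_mem y'.2 (Y.inv_mem y.2))
    rw [hUV, Subgroup.mem_bot] at h4
    have h5 : (a : Γ) = (a' : Γ) := by
      have := congrArg (fun z => (a' : Γ) * z) h4
      simpa using this
    have h6 : (y : Γ) = (y' : Γ) := by
      rw [h5] at h2
      exact mul_left_cancel h2
    exact Prod.ext (Subtype.ext h5) (Subtype.ext h6)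
  have hbij : Function.Bijective φ := by
    apply hinj.bijective_of_nat_card_le
    rw [Nat.card_prod]
    exact hcard
  intro u hu hcu
  obtain ⟨⟨a, y⟩, hay⟩ := hbij.2 ⟨c⁻¹ * u * c, hcu⟩
  have h1 : c⁻¹ * ((a : Γ) * (y : Γ)) * c = c⁻¹ * u * c := congrArg Subtype.val hay
  have h2 : (a : Γ) * (y : Γ) = u := by
    have := congrArg (fun z => c * z * c⁻¹) h1
    simpa [mul_assoc] using this
  have h3 : (y : Γ) ∈ U ⊓ V := by
    refine ⟨?_, hYV y.2⟩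
    have : (y : Γ) = (a : Γ)⁻¹ * u := by rw [← h2]; group
    rw [this]
    exact U.mul_mem (U.inv_mem (hUJ a.2)) hu
  rw [hUV, Subgroup.mem_bot] at h3
  rw [← h2, h3, mul_one]
  exact a.2

end Cfsg.Agent.Helper8.UCSYL
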