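import Mathlib
import Cfsg.Agent.Helper79.S4705Defs
import Cfsg.Agent.Helper79.Basic
import Cfsg.Agent.Helper81.CharBasic
import Cfsg.Agent.Helper9.S4504BFOUR
import Cfsg.Agent.Helper14.S4504BLAM
import Cfsg.Agent.Helper4.S4504SING

/-!
# Sub-CALL S4705Z (helper79), piece FROB (helper8)

The involution count: for `t` with `t² = 1`, the class-algebra constants
`N(c) = #{(a, b) : a t a⁻¹ · b t b⁻¹ = x c}` (`c` central) vanish for `c ≠ 1` (`|Z|` is odd and
prime to `p`), so the Fourier inversions over the central character of `ζ` and over the trivial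
central character agree.
-/

set_option autoImplicit false
open Cfsg Cfsg.Agent.Helper79 Cfsg.Agent.Helper14.S4504B
open scoped ComplexConjugate

universe u

namespace Cfsg.Agent.Helper8

variable {H : Type u} [Group H] [Finite H]

/-- the class-algebra count of pairs of conjugates of `t` with product `x c`, Fourier-inverted on
the centre -/
theorem s4705zf_char [Fintype H] [Fintype (Subgroup.center H)]
    [Fintype (Cfsg.IrrCharacter H)] (p : ℕ) (hp : 1 < p) (x t : H)
    (μ : Subgroup.center H → ℂ) (hmul : ∀ z w, μ (z * w) = μ z * μ w)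
    (hnorm : ∀ z, μ z * conj (μ z) = 1) :
    ∑ c : Subgroup.center H, μ c *
        (Nat.card {gh : H × H // gh.1 * t * gh.1⁻¹ * (gh.2 * t * gh.2⁻¹) = x * (c : H)} : ℂ)
      = (Nat.card H : ℂ) * (Nat.card (Subgroup.center H) : ℂ) *
        ∑ᶠ χ ∈ {χ : Cfsg.IrrCharacter H | HasCC (χ : H → ℂ) μ},
          (χ : H → ℂ) t ^ 2 * conj ((χ : H → ℂ) x) / (χ : H → ℂ) 1 := by
  classical
  obtain ⟨S, hSdef⟩ : ∃ S : Finset (Cfsg.IrrCharacter H),
      S = Finset.univ.filter (fun ξ : Cfsg.IrrCharacter H => HasCC (ξ : H → ℂ) μ) := ⟨_, rfl⟩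
  have hS : ∀ ξ : Cfsg.IrrCharacter H, ξ ∈ S ↔ HasCC (ξ : H → ℂ) μ := by
    intro ξ
    rw [hSdef, Finset.mem_filter]
    exact ⟨fun h => h.2, fun h => ⟨Finset.mem_univ _, h⟩⟩
  have h1mem : (1 : ℕ) ∈ bset p := mem_bset.mpr ⟨hp, one_ne_zero⟩
  have h4 := Cfsg.Agent.Helper9.S4504BFOUR.s4504b_four p t x μ hmul hnorm
    (fun b => if b = 1 then (1 : ℂ) else 0) S hS
  have hL : ∀ c : Subgroup.center H,
      ∑ b ∈ bset p, μ c * (if b = 1 then (1 : ℂ) else 0) *
        (Nat.card {gh : H × H // gh.1 * t * gh.1⁻¹ * (gh.2 * t ^ b * gh.2⁻¹) = x * (c : H)} : ℂ)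
      = μ c *
        (Nat.card {gh : H × H // gh.1 * t * gh.1⁻¹ * (gh.2 * t * gh.2⁻¹) = x * (c : H)} : ℂ) := by
    intro c
    rw [Finset.sum_eq_single 1]
    · rw [if_pos rfl, mul_one, pow_one]
    · intro b _ hb
      rw [if_neg hb, mul_zero, zero_mul]
    · intro h; exact absurd h1mem h
  have hR : ∀ ξ : Cfsg.IrrCharacter H,
      term p t x (fun b => if b = 1 then (1 : ℂ) else 0) (ξ : H → ℂ)
        = (ξ : H → ℂ) t ^ 2 * conj ((ξ : H → ℂ) x) / (ξ : H → ℂ) 1 := by
    intro ξ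
    unfold term
    have h5 : ∑ b ∈ bset p, (if b = 1 then (1 : ℂ) else 0) * (ξ : H → ℂ) (t ^ b)
        = (ξ : H → ℂ) t := by
      rw [Finset.sum_eq_single 1]
      · rw [if_pos rfl, one_mul, pow_one]
      · intro b _ hb
        rw [if_neg hb, zero_mul]
      · intro h; exact absurd h1mem h
    rw [h5, pow_two]
  rw [Finset.sum_congr rfl (fun c _ => hL c), Finset.sum_congr rfl (fun ξ _ => hR ξ)] at h4
  rw [h4]
  congr 1
  have hset : {χ : Cfsg.IrrCharacter H | HasCC (χ : H → ℂ) μ} = (S : Set (Cfsg.IrrCharacter H)) := by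
    ext ξ
    rw [Set.mem_setOf_eq, Finset.mem_coe, hS]
  rw [hset, finsum_mem_coe_finset]

/-- a central element of `p`-power... : the centre has order prime to `p` -/
theorem s4705zf_center_p (p : ℕ) [Fact p.Prime] (x : H) (hx : orderOf x = p)
    (hsq : ¬ p ^ 2 ∣ Nat.card H) (hnn : ¬ (Subgroup.zpowers x).Normal) :
    ¬ p ∣ Nat.card (Subgroup.center H) := by
  intro hdvd
  obtain ⟨z₀, hz₀⟩ := exists_prime_orderOf_dvd_card' p hdvd
  have hz₀' : orderOf (z₀ : H) = p := by rw [Subgroup.orderOf_coe]; exact hz₀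
  have hcomm : (z₀ : H) * x = x * (z₀ : H) :=
    ((Subgroup.mem_center_iff.mp z₀.2) x).symm
  have hxmem := Cfsg.Agent.Helper4.s4504s_mem_zpowers p hsq hz₀' hx hcomm
  have hxc : x ∈ Subgroup.center H := by
    obtain ⟨k, hk⟩ := Subgroup.mem_zpowers_iff.mp hxmem
    rw [← hk]
    exact Subgroup.zpow_mem _ z₀.2 k
  apply hnn
  refine ⟨fun n hn g => ?_⟩
  have hnc : n ∈ Subgroup.center H := by
    obtain ⟨k, hk⟩ := Subgroup.mem_zpowers_iff.mp hn
    rw [← hk]
    exact Subgroup.zpow_mem _ hxc k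
  have h1 : g * n * g⁻¹ = n := by
    rw [Subgroup.mem_center_iff] at hnc
    rw [hnc g, mul_inv_cancel_right]
  rw [h1]; exact hn

/-- FROB: the involution count: the sums over the two central characters agree. -/
theorem s4705z_frob (p : ℕ) [Fact p.Prime] (x : H) (ζ : H → ℂ) (h : S4705Wk p x ζ)
    (S : S4705Shape p x ζ) (hodd : Odd (Nat.card (Subgroup.center H))) (t : H)
    (ht : t * t = 1) :
    ∑ᶠ χ ∈ {χ : Cfsg.IrrCharacter H | S4705Over ζ (χ : H → ℂ)},
        (χ : H → ℂ) t ^ 2 * conj ((χ : H → ℂ) x) / (χ : H → ℂ) 1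
      = ∑ᶠ χ ∈ {χ : Cfsg.IrrCharacter H |
            ∀ z ∈ Subgroup.center H, (χ : H → ℂ) z = (χ : H → ℂ) 1},
        (χ : H → ℂ) t ^ 2 * conj ((χ : H → ℂ) x) / (χ : H → ℂ) 1 := by
  classical
  haveI : Fintype H := Fintype.ofFinite H
  haveI : Fintype (Subgroup.center H) := Fintype.ofFinite _
  haveI : Fintype (Cfsg.IrrCharacter H) := Fintype.ofFinite _
  have hpp : p.Prime := Fact.out
  have hxp : x ^ p = 1 := by rw [← h.hx]; exact pow_orderOf_eq_one x
  have hpZ := s4705zf_center_p p x h.hx h.hsq h.hnn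
  have hcop : Nat.Coprime (2 * p) (Nat.card (Subgroup.center H)) :=
    Nat.Coprime.mul_left hodd.coprime_two_left ((Nat.Prime.coprime_iff_not_dvd hpp).mpr hpZ)
  -- the counts vanish off `c = 1`
  have hN0 : ∀ c : Subgroup.center H, c ≠ 1 →
      (Nat.card {gh : H × H // gh.1 * t * gh.1⁻¹ * (gh.2 * t * gh.2⁻¹) = x * (c : H)} : ℂ)
        = 0 := by
    intro c hc
    have hempty : IsEmpty {gh : H × H //
        gh.1 * t * gh.1⁻¹ * (gh.2 * t * gh.2⁻¹) = x * (c : H)} := by
      refine ⟨fun ⟨⟨a, b⟩, hab⟩ => hc ?_⟩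
      have hab' : a * t * a⁻¹ * (b * t * b⁻¹) = x * (c : H) := hab
      obtain ⟨u, hu⟩ : ∃ u : H, u = a * t * a⁻¹ := ⟨_, rfl⟩
      obtain ⟨v, hv⟩ : ∃ v : H, v = b * t * b⁻¹ := ⟨_, rfl⟩
      rw [← hu, ← hv] at hab'
      have huu : u * u = 1 := by
        rw [hu]
        calc a * t * a⁻¹ * (a * t * a⁻¹) = a * (t * t) * a⁻¹ := by group
          _ = 1 := by rw [ht]; group
      have hvv : v * v = 1 := by
        rw [hv]
        calc b * t * b⁻¹ * (b * t * b⁻¹) = b * (t * t) * b⁻¹ := by group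
          _ = 1 := by rw [ht]; group
      have huinv : u⁻¹ = u := inv_eq_of_mul_eq_one_left huu
      have hvinv : v⁻¹ = v := inv_eq_of_mul_eq_one_left hvv
      -- `u` inverts `y = x c`
      have hinv : u * (x * (c : H)) * u⁻¹ = (x * (c : H))⁻¹ := by
        rw [← hab', mul_inv_rev, huinv, hvinv, ← mul_assoc, huu, one_mul]
      have hcc : ∀ g : H, g * (c : H) = (c : H) * g := Subgroup.mem_center_iff.mp c.2
      have hyp : (x * (c : H)) ^ p = (c : H) ^ p := by
        have hcomm : Commute x (c : H) := (hcc x)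
        rw [hcomm.mul_pow, hxp, one_mul]
      have hcpc : (c : H) ^ p ∈ Subgroup.center H := Subgroup.pow_mem _ c.2 p
      have h1 : u * (x * (c : H)) ^ p * u⁻¹ = ((x * (c : H)) ^ p)⁻¹ := by
        rw [← conj_pow, hinv, inv_pow]
      have h2 : u * (x * (c : H)) ^ p * u⁻¹ = (x * (c : H)) ^ p := by
        rw [hyp, Subgroup.mem_center_iff.mp hcpc u, mul_inv_cancel_right]
      have h3 : ((c : H) ^ p)⁻¹ = (c : H) ^ p := by
        rw [← hyp, ← h1, h2]
      have h4 : (c : H) ^ (2 * p) = 1 := by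
        rw [mul_comm, pow_mul, pow_two]
        nth_rewrite 1 [← h3]
        exact inv_mul_cancel _
      have h5 : c ^ (2 * p) = 1 := by
        apply Subtype.ext
        rw [Subgroup.coe_pow, Subgroup.coe_one]
        exact h4
      have hd1 : orderOf c ∣ 2 * p := orderOf_dvd_of_pow_eq_one h5
      have hd2 : orderOf c ∣ Nat.card (Subgroup.center H) := orderOf_dvd_natCard c
      have hd3 : orderOf c ∣ Nat.gcd (2 * p) (Nat.card (Subgroup.center H)) :=
        Nat.dvd_gcd hd1 hd2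
      rw [Nat.Coprime] at hcop
      rw [hcop] at hd3
      exact orderOf_eq_one_iff.mp (Nat.dvd_one.mp hd3)
    rw [Nat.card_of_isEmpty, Nat.cast_zero]
  have hsum : ∀ μ : Subgroup.center H → ℂ, μ 1 = 1 →
      ∑ c : Subgroup.center H, μ c *
        (Nat.card {gh : H × H // gh.1 * t * gh.1⁻¹ * (gh.2 * t * gh.2⁻¹) = x * (c : H)} : ℂ)
      = (Nat.card {gh : H × H //
          gh.1 * t * gh.1⁻¹ * (gh.2 * t * gh.2⁻¹) = x * ((1 : Subgroup.center H) : H)} : ℂ) := by
    intro μ h1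
    rw [Finset.sum_eq_single 1]
    · rw [h1, one_mul]
    · intro c _ hc
      rw [hN0 c hc, mul_zero]
    · intro hh; exact absurd (Finset.mem_univ _) hh
  have hζ1 : ζ 1 ≠ 0 := Cfsg.Agent.Helper76.irr_one_ne_zero ⟨ζ, h.hζ⟩
  obtain ⟨hl1, hl2, -, -⟩ := Cfsg.Agent.Helper14.S4504BLAM.s4504b_lam
    (⟨ζ, h.hζ⟩ : Cfsg.IrrCharacter H)
  have hlam1 : lam ζ 1 = 1 := by
    unfold lam
    rw [Subgroup.coe_one]
    exact div_self hζ1
  have hA := s4705zf_char p hpp.one_lt x t (lam ζ) hl1 hl2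
  have hB := s4705zf_char p hpp.one_lt x t (fun _ => (1 : ℂ))
    (fun _ _ => (mul_one (1 : ℂ)).symm) (fun _ => by rw [map_one, mul_one])
  rw [hsum (lam ζ) hlam1] at hA
  rw [hsum (fun _ => (1 : ℂ)) rfl] at hB
  have hset1 : {χ : Cfsg.IrrCharacter H | HasCC (χ : H → ℂ) (lam ζ)}
      = {χ : Cfsg.IrrCharacter H | S4705Over ζ (χ : H → ℂ)} := by
    ext χ
    simp only [Set.mem_setOf_eq]
    constructor
    · intro hcc z hz
      have h1 := hcc ⟨z, hz⟩
      unfold lam at h1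
      rw [h1]
      field_simp
    · intro hov z
      have h1 := hov (z : H) z.2
      unfold lam
      field_simp
      exact h1
  have hset2 : {χ : Cfsg.IrrCharacter H | HasCC (χ : H → ℂ) (fun _ => (1 : ℂ))}
      = {χ : Cfsg.IrrCharacter H |
          ∀ z ∈ Subgroup.center H, (χ : H → ℂ) z = (χ : H → ℂ) 1} := by
    ext χ
    simp only [Set.mem_setOf_eq]
    constructor
    · intro hcc z hz
      have h1 := hcc ⟨z, hz⟩
      rw [one_mul] at h1
      exact h1
    · intro htr z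
      rw [one_mul]
      exact htr (z : H) z.2
  rw [hset1] at hA
  rw [hset2] at hB
  have hne : (Nat.card H : ℂ) * (Nat.card (Subgroup.center H) : ℂ) ≠ 0 := by
    apply mul_ne_zero
    · exact_mod_cast Nat.card_pos.ne'
    · exact_mod_cast Nat.card_pos.ne'
  exact mul_left_cancel₀ hne (hA.symm.trans hB)

end Cfsg.Agent.Helper8
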