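import Mathlib
import Cfsg.Agent.Helper9.BRDefs
import Cfsg.Agent.Helper75.BRT1
import Cfsg.Agent.Helper80.CharIrr
import Cfsg.Agent.Helper81.CharBasic
import Cfsg.Agent.Helper81.Blocks
import Cfsg.Agent.Helper79.Basic

/-!
CALL S0997 (helper79), piece PB1 (helper8): the case (β1) bound on the 2-part.
-/

set_option autoImplicit false
open Cfsg
open scoped ComplexConjugate

universe u

namespace Cfsg.Agent.Helper8

/-- PB1 -/
theorem s997_beta_one {G : Type u} [Group G] [Fintype G] {p : ℕ} [Fact p.Prime]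
    {M : Ideal Cfsg.AlgInt} (hM : Cfsg.IsPModular p M) (P : Sylow p G) (e : ℕ)
    (T : Cfsg.Agent.Helper9.BRTab p M P e) (hε : T.ε = -1) (hp : p = 2 * e + 1) (he4 : 4 ≤ e)
    (b : ℕ) (hX1 : ∀ χ ∈ T.X1, Cfsg.charDegree (χ : G → ℂ) = p + 1)
    (hf : ∀ θ ∈ T.Y, Cfsg.charDegree (θ : G → ℂ) = e + 1) (hYne : T.Y.Nonempty)
    (hcard : Nat.card G = p * 2 ^ b * (e + 1))
    (y : G) (hy : y ∈ (P : Subgroup G)) (hy1 : y ≠ 1) (z : G) (hz : orderOf z = 2)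
    (hzC : 2 ^ b ∣ Nat.card (Subgroup.centralizer ({z} : Set G)))
    (hX2z : ∀ ψ ∈ T.X2, (ψ : G → ℂ) z = 0)
    (hfree : p * Nat.card (Subgroup.centralizer ({z} : Set G)) ^ 2 ∣
      Nat.card {gh : G × G // gh.1 * z * gh.1⁻¹ * (gh.2 * z * gh.2⁻¹) = y})
    (hcol : ∀ S : Finset (Cfsg.IrrCharacter G),
      ∑ χ ∈ S, ‖(χ : G → ℂ) z‖ ^ 2 ≤ (Nat.card (Subgroup.centralizer ({z} : Set G)) : ℝ))
    (hcc : (Nat.card {gh : G × G // gh.1 * z * gh.1⁻¹ * (gh.2 * z * gh.2⁻¹) = y} : ℂ)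
      = (Nat.card G : ℂ) * (1
          + ∑ ψ ∈ T.X1, (ψ : G → ℂ) z ^ 2 / (ψ : G → ℂ) 1
          - ∑ ψ ∈ T.X2, (ψ : G → ℂ) z ^ 2 / (ψ : G → ℂ) 1
          + ∑ θ ∈ T.Y, (θ : G → ℂ) z ^ 2 * conj ((θ : G → ℂ) y) / (θ : G → ℂ) 1)) :
    2 ^ b ≤ p - 1 := by
  classical
  have hpp : p.Prime := Fact.out
  -- z is an involution
  have hzz : z⁻¹ = z := by
    have h2 : z ^ 2 = 1 := by rw [← hz]; exact pow_orderOf_eq_one z
    rw [inv_eq_iff_mul_eq_one, ← sq]; exact h2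
  have hreal : ∀ χ : IrrCharacter G,
      (χ : G → ℂ) z ^ 2 = ((‖(χ : G → ℂ) z‖ ^ 2 : ℝ) : ℂ) := by
    intro χ
    have h1 := Cfsg.Agent.Helper80.isCharacter_inv (Cfsg.Agent.Helper79.irr_isCharacter χ) z
    rw [hzz] at h1
    have h2 : (χ : G → ℂ) z * conj ((χ : G → ℂ) z)
        = ((Complex.normSq ((χ : G → ℂ) z) : ℝ) : ℂ) := Complex.mul_conj _
    rw [← h1] at h2
    rw [sq, h2, Complex.normSq_eq_norm_sq]
  have hzreg : ¬ p ∣ orderOf z := by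
    rw [hz]
    intro h
    have := Nat.le_of_dvd (by norm_num) h
    omega
  obtain ⟨θ₀, hθ₀⟩ := hYne
  have hthsum := Cfsg.Agent.Helper75.br_theta_sum hM T ⟨θ₀, hθ₀⟩ y hy hy1
  rw [hε] at hthsum
  have hcolS := hcol (insert (Cfsg.Agent.Helper81.trivIrr G) (T.X1 ∪ T.Y))
  rw [Finset.sum_insert (by simp [T.h1X1, T.h1Y]), Finset.sum_union T.hX1Y] at hcolS
  have hcardY : T.Y.card = 2 := by
    rw [T.hcardY, hp]
    have : 2 * e + 1 - 1 = 2 * e := by omega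
    rw [this]
    exact Nat.mul_div_cancel _ (by omega)
  generalize ht : ‖(θ₀ : G → ℂ) z‖ ^ 2 = t at *
  generalize hS1 : ∑ ψ ∈ T.X1, ‖(ψ : G → ℂ) z‖ ^ 2 = S1 at *
  have hS1nn : 0 ≤ S1 := by
    rw [← hS1]; exact Finset.sum_nonneg (fun ψ _ => by positivity)
  have htnn : 0 ≤ t := by rw [← ht]; positivity
  generalize hc0 : Nat.card (Subgroup.centralizer ({z} : Set G)) = c0 at *
  generalize hN : Nat.card {gh : G × G // gh.1 * z * gh.1⁻¹ * (gh.2 * z * gh.2⁻¹) = y} = N at *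
  have hsumX1 : ∑ ψ ∈ T.X1, (ψ : G → ℂ) z ^ 2 / (ψ : G → ℂ) 1
      = ((S1 / (p + 1) : ℝ) : ℂ) := by
    rw [← hS1, Finset.sum_div]
    push_cast
    apply Finset.sum_congr rfl
    intro ψ hψ
    rw [hreal ψ, Cfsg.Agent.Helper81.irr_one_eq_charDegree, hX1 ψ hψ]
    push_cast
    rfl
  have hsumX2 : ∑ ψ ∈ T.X2, (ψ : G → ℂ) z ^ 2 / (ψ : G → ℂ) 1 = 0 := by
    apply Finset.sum_eq_zero
    intro ψ hψ
    rw [hX2z ψ hψ]; simp
  have hsumY : ∑ θ ∈ T.Y, (θ : G → ℂ) z ^ 2 * conj ((θ : G → ℂ) y) / (θ : G → ℂ) 1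
      = ((t / (e + 1) : ℝ) : ℂ) := by
    have h1 : ∀ θ ∈ T.Y, (θ : G → ℂ) z ^ 2 * conj ((θ : G → ℂ) y) / (θ : G → ℂ) 1
        = ((t : ℝ) : ℂ) / ((e : ℂ) + 1) * conj ((θ : G → ℂ) y) := by
      intro θ hθ
      rw [T.hYreg θ hθ θ₀ hθ₀ z hzreg, hreal θ₀, ht,
        Cfsg.Agent.Helper81.irr_one_eq_charDegree, hf θ hθ]
      push_cast
      ring
    rw [Finset.sum_congr rfl h1, ← Finset.mul_sum, ← map_sum, hthsum]
    simp
  have hYt : ∑ θ ∈ T.Y, ‖(θ : G → ℂ) z‖ ^ 2 = 2 * t := by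
    have h1 : ∀ θ ∈ T.Y, ‖(θ : G → ℂ) z‖ ^ 2 = t := by
      intro θ hθ; rw [T.hYreg θ hθ θ₀ hθ₀ z hzreg, ht]
    rw [Finset.sum_congr rfl h1, Finset.sum_const, hcardY]
    simp
  rw [Cfsg.Agent.Helper81.trivIrr_apply, hYt] at hcolS
  have hcolS' : 1 + S1 + 2 * t ≤ (c0 : ℝ) := by
    have : ‖(1 : ℂ)‖ ^ 2 = 1 := by simp
    rw [this] at hcolS
    linarith
  rw [hsumX1, hsumX2, hsumY] at hcc
  have hccR : (N : ℝ) = (Nat.card G : ℝ) * (1 + S1 / (p + 1) + t / (e + 1)) := by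
    have h : ((N : ℝ) : ℂ)
        = (((Nat.card G : ℝ) * (1 + S1 / (p + 1) + t / (e + 1)) : ℝ) : ℂ) := by
      push_cast at hcc ⊢
      rw [hcc]; ring
    exact_mod_cast h
  have hGpos : (0 : ℝ) < (Nat.card G : ℝ) := by
    have : 0 < Nat.card G := Nat.card_pos
    exact_mod_cast this
  have hpR : (p : ℝ) = 2 * (e : ℝ) + 1 := by rw [hp]; push_cast; ring
  have heR : (0 : ℝ) ≤ (e : ℝ) := by positivity
  -- N * (p + 1) = |G| * (p + 1 + S1 + 2 t)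
  have hmain : (N : ℝ) * ((p : ℝ) + 1) = (Nat.card G : ℝ) * ((p : ℝ) + 1 + S1 + 2 * t) := by
    rw [hccR, hpR]
    have h1 : (2 * (e : ℝ) + 1 + 1) ≠ 0 := by positivity
    have h2 : ((e : ℝ) + 1) ≠ 0 := by positivity
    field_simp
    ring
  have hNpos : 0 < N := by
    have : (0 : ℝ) < (N : ℝ) := by
      rw [hccR]
      apply mul_pos hGpos
      have h1 : 0 ≤ S1 / ((p : ℝ) + 1) := by positivity
      have h2 : 0 ≤ t / ((e : ℝ) + 1) := by positivity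
      linarith
    exact_mod_cast this
  have hle : p * c0 ^ 2 ≤ N := Nat.le_of_dvd hNpos hfree
  have hleR : (p : ℝ) * (c0 : ℝ) ^ 2 ≤ (N : ℝ) := by exact_mod_cast hle
  have hub : (N : ℝ) * ((p : ℝ) + 1) ≤ (Nat.card G : ℝ) * ((p : ℝ) + (c0 : ℝ)) := by
    rw [hmain]
    apply mul_le_mul_of_nonneg_left _ hGpos.le
    linarith
  have hfin : (p : ℝ) * (c0 : ℝ) ^ 2 * ((p : ℝ) + 1)
      ≤ (Nat.card G : ℝ) * ((p : ℝ) + (c0 : ℝ)) := by
    refine le_trans ?_ hub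
    apply mul_le_mul_of_nonneg_right hleR
    positivity
  have hfinN : p * c0 ^ 2 * (p + 1) ≤ Nat.card G * (p + c0) := by exact_mod_cast hfin
  rw [hcard] at hfinN
  -- cancel p * (e + 1)
  have hc0pos : 0 < c0 := by rw [← hc0]; exact Nat.card_pos
  have h2b : 2 ^ b ≤ c0 := Nat.le_of_dvd hc0pos hzC
  have hp1 : p + 1 = 2 * (e + 1) := by omega
  have hcancel : 2 * c0 ^ 2 ≤ 2 ^ b * (p + c0) := by
    have h1 : p * c0 ^ 2 * (p + 1) = (p * (e + 1)) * (2 * c0 ^ 2) := by rw [hp1]; ring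
    have h2 : p * 2 ^ b * (e + 1) * (p + c0) = (p * (e + 1)) * (2 ^ b * (p + c0)) := by ring
    rw [h1, h2] at hfinN
    exact Nat.le_of_mul_le_mul_left hfinN (by have := hpp.pos; positivity)
  have hc0p : c0 ≤ p := by
    have h1 : 2 * c0 ^ 2 ≤ c0 * (p + c0) :=
      le_trans hcancel (Nat.mul_le_mul_right _ h2b)
    have h2 : c0 * (2 * c0) ≤ c0 * (p + c0) := by
      have : c0 * (2 * c0) = 2 * c0 ^ 2 := by ring
      rw [this]; exact h1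
    have := Nat.le_of_mul_le_mul_left h2 hc0pos
    omega
  have hne : 2 ^ b ≠ p := by
    intro h
    rcases Nat.eq_zero_or_pos b with hb | hb
    · rw [hb] at h; simp at h; omega
    · have : 2 ∣ p := by
        rw [← h]; exact dvd_pow_self 2 (by omega)
      omega
  have : 2 ^ b ≤ p := le_trans h2b hc0p
  omega

end Cfsg.Agent.Helper8
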