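import Mathlib
import Cfsg.Agent.Helper9.OrdTools
import Cfsg.Agent.Helper9.OrdTools2
import Cfsg.Agent.Helper8.SylFix
import Cfsg.Agent.Helper85.T7920N11b
import Cfsg.Agent.Helper85.T7920N5a
import Cfsg.Agent.Helper85.T7920N5b

/-!
# Piece BASE of CALL S4429 (helper8): Sylow 11- and 5-numerics of a simple group of order 7920

The proofs are those of the assembly of CALL S0434 (helper52, `tools/calls/T7920Asm.lean.txt`),
resting on the pieces N11b, N5a, N5b of helper85.
-/

set_option autoImplicit false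
set_option linter.style.haveILetI false

universe u

namespace Cfsg.Agent.Helper8

open Subgroup Cfsg.Agent.Helper9 Cfsg.Agent.Helper9.OrdTools Cfsg.Agent.Helper85

namespace Ord7920

theorem arith11 (n : ℕ) (hd : n ∣ 720) (hm : n % 11 = 1) :
    n = 1 ∨ n = 12 ∨ n = 45 ∨ n = 144 := by
  obtain ⟨k, hk⟩ := hd
  by_cases hle : n ≤ 144
  · interval_cases n <;> omega
  · have hk3 : k ≤ 4 := by
      by_contra h
      push Not at h
      have : 145 * 5 ≤ n * k := Nat.mul_le_mul (by omega) (by omega)
      omega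
    interval_cases k <;> omega

theorem arith5 (n : ℕ) (hd : n ∣ 1584) (hm : n % 5 = 1) :
    n = 1 ∨ n = 6 ∨ n = 11 ∨ n = 16 ∨ n = 36 ∨ n = 66 ∨ n = 176 ∨ n = 396 := by
  obtain ⟨k, hk⟩ := hd
  by_cases hle : n ≤ 396
  · interval_cases n <;> omega
  · have hk3 : k ≤ 3 := by
      by_contra h
      push Not at h
      have : 397 * 4 ≤ n * k := Nat.mul_le_mul (by omega) (by omega)
      omega
    interval_cases k <;> omega

variable {G : Type u} [Group G] [Finite G]

/-- Sylow 11 numerics: self-centralising, normaliser of order 55. -/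
theorem syl11 [IsSimpleGroup G] (hG : Nat.card G = 7920) (P : Sylow 11 G) :
    Nat.card ↥(centralizer ((P : Subgroup G) : Set G)) = 11 ∧
    Nat.card ↥(normalizer ((P : Subgroup G) : Set G)) = 55 := by
  have : Fact (Nat.Prime 11) := ⟨by norm_num⟩
  have hP : Nat.card (P : Subgroup G) = 11 := by
    have := sylow_card 1 720 (hG.trans (by norm_num)) (by norm_num) P
    simpa using this
  obtain ⟨hd, hm, hne, hN⟩ := sylow_num P (by rw [hP]; norm_num) (by rw [hP, hG]; norm_num)
  have hidxP : (P : Subgroup G).index = 720 := by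
    have := (P : Subgroup G).card_mul_index
    rw [hP, hG] at this
    omega
  rw [hidxP] at hd
  obtain ⟨e, he, he1, hNe, hdc⟩ := normalizer_centralizer_prime P hP (by rw [hG]; norm_num)
  have he10 : e ≤ 10 := by
    have := Nat.le_of_dvd (by norm_num) he
    omega
  rw [hG] at hN
  obtain ⟨c, hc⟩ := hdc
  rcases arith11 _ hd hm with h1 | h1 | h1 | h1
  · exact absurd h1 hne
  · exfalso
    have hC := card_centralizer_of_num P hP (by rw [h1])
    rw [h1, hNe, hC] at hN
    omega
  · exact absurd h1 (o7920_n11_ne_45 hG)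
  · rw [h1, hNe, hc] at hN
    rw [hNe, hc]
    interval_cases e <;> omega

/-- Sylow 5 numerics: normaliser of order 20, centraliser of order dividing 10. -/
theorem syl5 [IsSimpleGroup G] (hG : Nat.card G = 7920)
    (hC11 : ∀ P : Sylow 11 G, Nat.card ↥(centralizer ((P : Subgroup G) : Set G)) = 11)
    (hN11 : ∀ P : Sylow 11 G, Nat.card ↥(normalizer ((P : Subgroup G) : Set G)) = 55)
    (Q : Sylow 5 G) :
    Nat.card ↥(normalizer ((Q : Subgroup G) : Set G)) = 20 ∧
    Nat.card ↥(centralizer ((Q : Subgroup G) : Set G)) ∣ 10 := by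
  have : Fact (Nat.Prime 5) := ⟨by norm_num⟩
  have hQ : Nat.card (Q : Subgroup G) = 5 := by
    have := sylow_card 1 1584 (hG.trans (by norm_num)) (by norm_num) Q
    simpa using this
  obtain ⟨hd, hm, hne, hN⟩ := sylow_num Q (by rw [hQ]; norm_num) (by rw [hQ, hG]; norm_num)
  have hidxQ : (Q : Subgroup G).index = 1584 := by
    have := (Q : Subgroup G).card_mul_index
    rw [hQ, hG] at this
    omega
  rw [hidxQ] at hd
  obtain ⟨e, he, he1, hNe, hdc⟩ := normalizer_centralizer_prime Q hQ (by rw [hG]; norm_num)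
  have he4 : e ≤ 4 := by
    have := Nat.le_of_dvd (by norm_num) he
    omega
  have he' : e ∣ 4 := he
  have hle := o7920_norm5_le hG hC11 hN11 Q (o7920_fix5_le hG hC11 hN11 Q)
  rw [hG] at hN
  obtain ⟨c, hc⟩ := hdc
  rcases arith5 _ hd hm with h1 | h1 | h1 | h1 | h1 | h1 | h1 | h1
  · exact absurd h1 hne
  · rw [h1] at hN; omega
  · rw [h1] at hN; omega
  · rw [h1] at hN; omega
  · rw [h1] at hN; omega
  · rw [h1] at hN; omega
  · exfalso
    rw [h1, hNe, hc] at hN
    interval_cases e <;> omega
  · rw [h1, hNe, hc] at hN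
    rw [hNe, hc]
    interval_cases e
    · have hc2 : c = 2 := by omega
      subst hc2; norm_num
    · omega
    · have hc1 : c = 1 := by omega
      subst hc1; norm_num

end Ord7920

/-- BASE of CALL S4429. -/
theorem o7920_base {G : Type u} [Group G] [Finite G] [IsSimpleGroup G]
    (hG : Nat.card G = 7920) :
    (∀ P : Sylow 11 G, Nat.card (Subgroup.centralizer ((P : Subgroup G) : Set G)) = 11 ∧
      Nat.card (Subgroup.normalizer ((P : Subgroup G) : Set G)) = 55) ∧
    (∀ Q : Sylow 5 G, Nat.card (Subgroup.normalizer ((Q : Subgroup G) : Set G)) = 20 ∧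
      Nat.card (Subgroup.centralizer ((Q : Subgroup G) : Set G)) ∣ 10) :=
  ⟨fun P => Ord7920.syl11 hG P,
   fun Q => Ord7920.syl5 hG (fun P => (Ord7920.syl11 hG P).1) (fun P => (Ord7920.syl11 hG P).2) Q⟩

end Cfsg.Agent.Helper8
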