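import Cfsg.Agent.Helper9.BRDefs
import Cfsg.Agent.Helper81.CharBasic
import Cfsg.Agent.Helper81.Blocks

/-!
# Piece E2A of CALL S4429 (helper8): arithmetic of the principal 5-block when
`|N(Q) : C(Q)| = 2`
-/

set_option autoImplicit false
set_option linter.style.haveILetI false
set_option maxHeartbeats 1000000
open Cfsg
open scoped ComplexConjugate

universe u

namespace Cfsg.Agent.Helper8

theorem o7920_e2a_arith1 : ∀ n ≤ 50, n % 5 = 1 → n ∣ 7920 → (n + 1) ∣ 7920 → 2 ≤ n → n = 11 := by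
  decide +kernel

theorem o7920_e2a_arith2 : ∀ n ≤ 52, n % 5 = 4 → n ∣ 7920 → (n - 1) ∣ 7920 → n = 4 ∨ n = 9 := by
  decide +kernel

/-- PIECE E2A. -/
theorem o7920_five_two_arith {G : Type u} [Group G] [Fintype G]
    [Fintype (Cfsg.IrrCharacter G)] {M : Ideal Cfsg.AlgInt} (Q : Sylow 5 G)
    (T : Cfsg.Agent.Helper9.BRTab 5 M Q 2)
    (hdvd : ∀ χ : Cfsg.IrrCharacter G, Cfsg.charDegree (χ : G → ℂ) ∣ 7920)
    (h2 : ∀ χ : Cfsg.IrrCharacter G, χ ≠ Helper81.trivIrr G →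
      2 ≤ Cfsg.charDegree (χ : G → ℂ))
    (hsq : ∑ χ : Cfsg.IrrCharacter G, Cfsg.charDegree (χ : G → ℂ) ^ 2 = 7920) :
    (∃ χ : Cfsg.IrrCharacter G, T.X1 = {χ} ∧ T.X2 = ∅ ∧ T.ε = 1 ∧
      Cfsg.charDegree (χ : G → ℂ) = 11) ∨
    (∃ χ ∈ T.X2, Cfsg.charDegree (χ : G → ℂ) = 4 ∨ Cfsg.charDegree (χ : G → ℂ) = 9) := by
  classical
  have hrelZ : ∀ θ ∈ T.Y, T.ε * (Cfsg.charDegree (θ : G → ℂ) : ℤ) =
      1 + ((∑ χ ∈ T.X1, Cfsg.charDegree (χ : G → ℂ) : ℕ) : ℤ)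
        - ((∑ χ ∈ T.X2, Cfsg.charDegree (χ : G → ℂ) : ℕ) : ℤ) := by
    intro θ hθ
    have h := T.hrel θ hθ 1 (by rw [orderOf_one]; norm_num)
    simp only [Helper81.irr_one_eq_charDegree] at h
    have h' : ((T.ε * (Cfsg.charDegree (θ : G → ℂ) : ℤ) : ℤ) : ℂ) =
        ((1 + ((∑ χ ∈ T.X1, Cfsg.charDegree (χ : G → ℂ) : ℕ) : ℤ)
        - ((∑ χ ∈ T.X2, Cfsg.charDegree (χ : G → ℂ) : ℕ) : ℤ) : ℤ) : ℂ) := by
      push_cast; exact h
    exact_mod_cast h'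
  have hcard := T.hcard
  have hY2 : T.Y.card = 2 := by
    have := T.hcardY
    simpa using this
  obtain ⟨θ, θ', hne, hYeq⟩ := Finset.card_eq_two.mp hY2
  have hθ : θ ∈ T.Y := by rw [hYeq]; simp
  have hθ' : θ' ∈ T.Y := by rw [hYeq]; simp
  have hr := hrelZ θ hθ
  have hr' := hrelZ θ' hθ'
  -- the sum of three squares
  have hthree : ∀ χ : Cfsg.IrrCharacter G, χ ≠ θ → χ ≠ θ' →
      Cfsg.charDegree (χ : G → ℂ) ^ 2 + Cfsg.charDegree (θ : G → ℂ) ^ 2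
        + Cfsg.charDegree (θ' : G → ℂ) ^ 2 ≤ 7920 := by
    intro χ h1 h2'
    have hsub : ∑ ψ ∈ ({χ, θ, θ'} : Finset (Cfsg.IrrCharacter G)),
        Cfsg.charDegree (ψ : G → ℂ) ^ 2
        ≤ ∑ ψ : Cfsg.IrrCharacter G, Cfsg.charDegree (ψ : G → ℂ) ^ 2 :=
      Finset.sum_le_sum_of_subset (Finset.subset_univ _)
    rw [hsq, Finset.sum_insert (by simp [h1, h2']), Finset.sum_insert (by simp [hne]),
      Finset.sum_singleton] at hsub
    omega
  have hcases : (T.X1.card = 1 ∧ T.X2.card = 0) ∨ (T.X1.card = 0 ∧ T.X2.card = 1) := by omega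
  rcases hcases with ⟨h1, h0⟩ | ⟨h0, h1⟩
  · left
    obtain ⟨χ, hχ⟩ := Finset.card_eq_one.mp h1
    have hX2 : T.X2 = ∅ := Finset.card_eq_zero.mp h0
    have hχmem : χ ∈ T.X1 := by rw [hχ]; exact Finset.mem_singleton_self χ
    rw [hχ, hX2, Finset.sum_singleton, Finset.sum_empty] at hr hr'
    have hmod := (T.hX1 χ hχmem).1
    unfold Int.ModEq at hmod
    have hχ2 := h2 χ (fun e => T.h1X1 (e ▸ hχmem))
    have hχθ : χ ≠ θ := fun e => (Finset.disjoint_left.mp T.hX1Y hχmem) (e ▸ hθ)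
    have hχθ' : χ ≠ θ' := fun e => (Finset.disjoint_left.mp T.hX1Y hχmem) (e ▸ hθ')
    have h3 := hthree χ hχθ hχθ'
    rcases T.hε with he | he
    · rw [he] at hr hr'
      have hdθ : Cfsg.charDegree (θ : G → ℂ) = Cfsg.charDegree (χ : G → ℂ) + 1 := by omega
      have hdθ' : Cfsg.charDegree (θ' : G → ℂ) = Cfsg.charDegree (χ : G → ℂ) + 1 := by omega
      have hle : Cfsg.charDegree (χ : G → ℂ) ≤ 50 := by
        by_contra hcon
        have h51 : 51 ≤ Cfsg.charDegree (χ : G → ℂ) := by omega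
        have ha : 51 ^ 2 ≤ Cfsg.charDegree (χ : G → ℂ) ^ 2 := Nat.pow_le_pow_left h51 2
        have hb : 52 ^ 2 ≤ Cfsg.charDegree (θ : G → ℂ) ^ 2 :=
          Nat.pow_le_pow_left (by omega) 2
        have hc : 52 ^ 2 ≤ Cfsg.charDegree (θ' : G → ℂ) ^ 2 :=
          Nat.pow_le_pow_left (by omega) 2
        omega
      have hd1 := hdvd χ
      have hd2 := hdvd θ
      rw [hdθ] at hd2
      exact ⟨χ, hχ, hX2, he, o7920_e2a_arith1 _ hle (by omega) hd1 hd2 hχ2⟩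
    · exfalso
      rw [he] at hr
      omega
  · right
    obtain ⟨χ, hχ⟩ := Finset.card_eq_one.mp h1
    have hX1 : T.X1 = ∅ := Finset.card_eq_zero.mp h0
    have hχmem : χ ∈ T.X2 := by rw [hχ]; exact Finset.mem_singleton_self χ
    rw [hχ, hX1, Finset.sum_singleton, Finset.sum_empty] at hr hr'
    have hmod := (T.hX2 χ hχmem).1
    unfold Int.ModEq at hmod
    have hχ2 := h2 χ (fun e => T.h1X2 (e ▸ hχmem))
    have hχθ : χ ≠ θ := fun e => (Finset.disjoint_left.mp T.hX2Y hχmem) (e ▸ hθ)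
    have hχθ' : χ ≠ θ' := fun e => (Finset.disjoint_left.mp T.hX2Y hχmem) (e ▸ hθ')
    have h3 := hthree χ hχθ hχθ'
    rcases T.hε with he | he
    · exfalso
      rw [he] at hr
      omega
    · rw [he] at hr hr'
      have hdθ : Cfsg.charDegree (θ : G → ℂ) = Cfsg.charDegree (χ : G → ℂ) - 1 := by omega
      have hdθ' : Cfsg.charDegree (θ' : G → ℂ) = Cfsg.charDegree (χ : G → ℂ) - 1 := by omega
      have hle : Cfsg.charDegree (χ : G → ℂ) ≤ 52 := by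
        by_contra hcon
        have h53 : 53 ≤ Cfsg.charDegree (χ : G → ℂ) := by omega
        have ha : 53 ^ 2 ≤ Cfsg.charDegree (χ : G → ℂ) ^ 2 := Nat.pow_le_pow_left h53 2
        have hb : 52 ^ 2 ≤ Cfsg.charDegree (θ : G → ℂ) ^ 2 :=
          Nat.pow_le_pow_left (by omega) 2
        have hc : 52 ^ 2 ≤ Cfsg.charDegree (θ' : G → ℂ) ^ 2 :=
          Nat.pow_le_pow_left (by omega) 2
        omega
      have hd1 := hdvd χ
      have hd2 := hdvd θ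
      rw [hdθ] at hd2
      exact ⟨χ, hχmem, o7920_e2a_arith2 _ hle (by omega) hd1 hd2⟩

end Cfsg.Agent.Helper8
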