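import Cfsg.Agent.Helper9.BRDefs
import Cfsg.Agent.Helper80.CharOrtho
import Cfsg.Agent.Helper81.Blocks

/-!
# Piece E2B3 of CALL S4429 (helper8): the centraliser of the involution has order at least 210
-/

set_option autoImplicit false
set_option linter.style.haveILetI false
set_option maxHeartbeats 1000000
open Cfsg
open scoped ComplexConjugate

universe u

namespace Cfsg.Agent.Helper8

/-- PIECE E2B3. -/
theorem o7920_five_two_cent {G : Type u} [Group G] [Fintype G]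
    {M : Ideal Cfsg.AlgInt} (Q : Sylow 5 G)
    (T : Cfsg.Agent.Helper9.BRTab 5 M Q 2) (c : G) (hc : orderOf c = 2)
    (χ : Cfsg.IrrCharacter G) (hX1 : T.X1 = {χ}) (hX2 : T.X2 = ∅) (hε : T.ε = 1)
    (hval : (χ : G → ℂ) c = -9) :
    210 ≤ Nat.card (Subgroup.centralizer ({c} : Set G)) := by
  classical
  haveI : Fintype (Cfsg.IrrCharacter G) := Fintype.ofFinite _
  have hc5 : ¬ 5 ∣ orderOf c := by rw [hc]; norm_num
  have hθ : ∀ θ ∈ T.Y, (θ : G → ℂ) c = -8 := by
    intro θ hθ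
    have h := T.hrel θ hθ c hc5
    rw [hX1, hX2, hε] at h
    simp only [Finset.sum_singleton, Finset.sum_empty, hval] at h
    push_cast at h
    linear_combination h
  have hY : T.Y.card = 2 := by
    have := T.hcardY
    simpa using this
  obtain ⟨θ, θ', hne, hYeq⟩ := Finset.card_eq_two.mp hY
  have hθY : θ ∈ T.Y := by rw [hYeq]; simp
  have hθ'Y : θ' ∈ T.Y := by rw [hYeq]; simp
  have hχX1 : χ ∈ T.X1 := by rw [hX1]; simp
  have h1χ : Helper81.trivIrr G ≠ χ := fun h => T.h1X1 (h ▸ hχX1)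
  have h1θ : Helper81.trivIrr G ≠ θ := fun h => T.h1Y (h ▸ hθY)
  have h1θ' : Helper81.trivIrr G ≠ θ' := fun h => T.h1Y (h ▸ hθ'Y)
  have hχθ : χ ≠ θ := fun h => (Finset.disjoint_left.mp T.hX1Y hχX1) (h ▸ hθY)
  have hχθ' : χ ≠ θ' := fun h => (Finset.disjoint_left.mp T.hX1Y hχX1) (h ▸ hθ'Y)
  have hcol := Helper80.irr_finsum_column_orthogonality_of_isConj (IsConj.refl c)
  rw [finsum_eq_sum_of_fintype] at hcol
  have hre : ∑ ψ : Cfsg.IrrCharacter G, Complex.normSq ((ψ : G → ℂ) c)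
      = (Nat.card (Subgroup.centralizer ({c} : Set G)) : ℝ) := by
    have hmc : ∀ ψ : Cfsg.IrrCharacter G, (ψ : G → ℂ) c * conj ((ψ : G → ℂ) c)
        = ((Complex.normSq ((ψ : G → ℂ) c) : ℝ) : ℂ) := fun ψ => Complex.mul_conj _
    simp only [hmc] at hcol
    rw [← Complex.ofReal_sum] at hcol
    exact_mod_cast hcol
  have hsub : ∑ ψ ∈ ({Helper81.trivIrr G, χ, θ, θ'} : Finset (Cfsg.IrrCharacter G)),
      Complex.normSq ((ψ : G → ℂ) c)
      ≤ ∑ ψ : Cfsg.IrrCharacter G, Complex.normSq ((ψ : G → ℂ) c) :=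
    Finset.sum_le_sum_of_subset_of_nonneg (Finset.subset_univ _)
      (fun _ _ _ => Complex.normSq_nonneg _)
  have hS : ∑ ψ ∈ ({Helper81.trivIrr G, χ, θ, θ'} : Finset (Cfsg.IrrCharacter G)),
      Complex.normSq ((ψ : G → ℂ) c) = 210 := by
    rw [Finset.sum_insert, Finset.sum_insert, Finset.sum_insert, Finset.sum_singleton]
    · rw [Helper81.trivIrr_apply, hval, hθ θ hθY, hθ θ' hθ'Y]
      norm_num [Complex.normSq_apply]
    · simp [hne]
    · simp [hχθ, hχθ']
    · simp [h1χ, h1θ, h1θ']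
  have h210 : (210 : ℝ) ≤ (Nat.card (Subgroup.centralizer ({c} : Set G)) : ℝ) := by
    rw [← hre, ← hS]
    exact hsub
  exact_mod_cast h210

end Cfsg.Agent.Helper8
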