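import Cfsg.Agent.Helper9.BRDefs
import Cfsg.Agent.Helper75.BRT3
import Cfsg.Agent.Helper81.SectionChar
import Cfsg.Agent.Helper80.CharOrtho

/-!
# Piece OUT of CALL S4429 (helper8): outside the principal block of a self-centralising Sylow
subgroup of prime order, the character degrees are divisible by `p`
-/

set_option autoImplicit false
set_option linter.style.haveILetI false
set_option maxHeartbeats 1000000
open Cfsg
open scoped ComplexConjugate

universe u

namespace Cfsg.Agent.Helper8

/-- PIECE OUT. -/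
theorem br_outside_dvd {G : Type u} [Group G] [Fintype G] {p : ℕ} [Fact p.Prime]
    {M : Ideal Cfsg.AlgInt} (hM : Cfsg.IsPModular p M) (P : Sylow p G)
    (hP : Nat.card (P : Subgroup G) = p)
    (hC : Nat.card (Subgroup.centralizer ((P : Subgroup G) : Set G)) = p)
    (χ : Cfsg.IrrCharacter G) (hχ : χ ∉ Cfsg.principalBlock M G) :
    p ∣ Cfsg.charDegree (χ : G → ℂ) := by
  classical
  haveI : Fintype (P : Subgroup G) := Fintype.ofFinite _
  obtain ⟨n, hn⟩ := Helper81.exists_linMult χ (P : Subgroup G).subtype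
    (1 : (P : Subgroup G) →* ℂˣ)
  have hsum : ∑ x : (P : Subgroup G), (χ : G → ℂ) ((P : Subgroup G).subtype x)
      * conj (((1 : (P : Subgroup G) →* ℂˣ) x : ℂˣ) : ℂ) = (χ : G → ℂ) 1 := by
    rw [← Finset.add_sum_erase Finset.univ _ (Finset.mem_univ (1 : (P : Subgroup G)))]
    rw [Finset.sum_eq_zero]
    · simp
    · intro x hx
      have hx1 : x ≠ 1 := Finset.ne_of_mem_erase hx
      have h0 := Helper75.br_vanish hM P hP hC χ hχ (x : G) x.2
        (fun h => hx1 (Subtype.ext h))
      simp [h0]
  rw [hsum, Helper81.irr_one_eq_charDegree, ← Nat.card_eq_fintype_card, hP] at hn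
  have h7 : Cfsg.charDegree (χ : G → ℂ) = p * n := by exact_mod_cast hn
  exact ⟨n, h7⟩

end Cfsg.Agent.Helper8
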