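import Cfsg.Agent.Helper9.BRDefs
import Cfsg.Agent.Helper9.BrauerP
import Cfsg.Agent.Helper9.OrdTools2
import Cfsg.Agent.Helper8.Ord459B
import Cfsg.Agent.Helper75.BRNF
import Cfsg.Agent.Helper78.Counting
import Cfsg.Agent.Helper80.CharOrtho
import Cfsg.Agent.Helper8.D7920OUT
import Cfsg.Agent.Helper8.D7920BASE
import Cfsg.Agent.Helper9.D7920T11A
import Cfsg.Agent.Helper73.D7920T11L
import Cfsg.Agent.Helper73.D7920T5
import Cfsg.Agent.Helper67.D7920ARFA
import Cfsg.Agent.Helper73.D7920ARFB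
import Cfsg.Agent.Helper73.D7920FIN
import Cfsg.Agent.Helper8.D7920E2A
import Cfsg.Agent.Helper66.D7920E2B1
import Cfsg.Agent.Helper66.D7920E2B2
import Cfsg.Agent.Helper8.D7920E2B3
import Cfsg.Agent.Helper33.D7920E2C1
import Cfsg.Agent.Helper55.D7920E2C2
import Cfsg.Agent.Helper66.D7920E2D1
import Cfsg.Agent.Helper10.D7920E2D2

/-!
# The character degrees of a simple group of order 7920 (assembly of CALL S4429, helper8)

Pieces by helper9, helper10, helper33, helper55, helper66, helper67, helper73 (and helper52 /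
helper85 for the Sylow numerics behind `o7920_base`).
-/

set_option autoImplicit false
set_option linter.style.haveILetI false
set_option maxHeartbeats 1000000
open Cfsg
open scoped ComplexConjugate

universe u

namespace Cfsg.Agent.Helper8

open Subgroup Cfsg.Agent.Helper9.OrdTools

namespace Ord7920

/-- `C(Q) = Q` for a Sylow 5-subgroup of a simple group of order 7920. -/
theorem cent_five {G : Type u} [Group G] [Finite G] [IsSimpleGroup G]
    (hG : Nat.card G = 7920) (hna : ∃ a b : G, a * b ≠ b * a) (Q : Sylow 5 G) :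
    Nat.card (centralizer ((Q : Subgroup G) : Set G)) = 5 := by
  classical
  haveI : Fintype G := Fintype.ofFinite G
  haveI : Fintype (Cfsg.IrrCharacter G) := Fintype.ofFinite _
  haveI : Fact (Nat.Prime 5) := ⟨by norm_num⟩
  obtain ⟨h11, h5⟩ := Cfsg.Agent.Helper8.o7920_base hG
  obtain ⟨hN, hCd⟩ := h5 Q
  have hQ : Nat.card (Q : Subgroup G) = 5 := by
    have := sylow_card (p := 5) 1 1584 (hG.trans (by norm_num)) (by norm_num) Q
    simpa using this
  obtain ⟨e, -, -, hNC, h5C⟩ := normalizer_centralizer_prime Q hQ (by rw [hG]; norm_num)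
  have hCle : Nat.card (centralizer ((Q : Subgroup G) : Set G)) ≤ 10 :=
    Nat.le_of_dvd (by norm_num) hCd
  have hC : Nat.card (centralizer ((Q : Subgroup G) : Set G)) = 5 ∨
      Nat.card (centralizer ((Q : Subgroup G) : Set G)) = 10 := by
    have hCpos : 0 < Nat.card (centralizer ((Q : Subgroup G) : Set G)) := Nat.card_pos
    obtain ⟨k, hk⟩ := h5C
    omega
  rcases hC with hC | hC
  · exact hC
  exfalso
  have hq : (centralizer ((Q : Subgroup G) : Set G)).relIndex
      (normalizer ((Q : Subgroup G) : Set G)) = 2 :=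
    Helper9.BrauerP.relIndex_of_card (Q : Subgroup G) (by rw [hN, hC])
  have hdvd : ∀ χ : Cfsg.IrrCharacter G, Cfsg.charDegree (χ : G → ℂ) ∣ 7920 := fun χ => by
    have := Helper79.irr_charDegree_dvd_card χ
    rwa [hG] at this
  have h2 : ∀ χ : Cfsg.IrrCharacter G, χ ≠ Helper81.trivIrr G →
      2 ≤ Cfsg.charDegree (χ : G → ℂ) :=
    fun χ hχ => Helper9.BrauerP.two_le_charDegree hna χ hχ
  have hsq : ∑ χ : Cfsg.IrrCharacter G, Cfsg.charDegree (χ : G → ℂ) ^ 2 = 7920 := by
    have := Helper80.irr_finsum_charDegree_sq (G := G)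
    rw [finsum_eq_sum_of_fintype, hG] at this
    exact this
  obtain ⟨M, hM⟩ := Helper78.exists_isPModular 5 (by norm_num)
  obtain ⟨T⟩ := Helper75.br_tab_exists 5 M hM (by norm_num) Q hQ 2 hq (by norm_num)
  obtain ⟨c, hc, hcQ, hle⟩ := Cfsg.Agent.Helper33.o7920_five_invol Q hQ hC
  have hcard := Cfsg.Agent.Helper55.o7920_five_cent_card hG (fun P => (h11 P).1) Q hN c hc hle
  obtain ⟨y, hyQ, hy1⟩ : ∃ y : G, y ∈ (Q : Subgroup G) ∧ y ≠ 1 := by
    by_contra hcon
    push Not at hcon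
    have hbot : (Q : Subgroup G) = ⊥ := (Subgroup.eq_bot_iff_forall _).mpr hcon
    rw [hbot, Subgroup.card_bot] at hQ
    omega
  have hyo : orderOf y = 5 := by
    have h1 : orderOf y ∣ 5 := by
      have h2 := orderOf_dvd_natCard (⟨y, hyQ⟩ : (Q : Subgroup G))
      rwa [Subgroup.orderOf_mk, hQ] at h2
    rcases (Nat.dvd_prime (by norm_num : Nat.Prime 5)).mp h1 with h | h
    · exact absurd (orderOf_eq_one_iff.mp h) hy1
    · exact h
  have hyc : y * c = c * y := (Subgroup.mem_centralizer_iff.mp hcQ) y hyQ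
  rcases Cfsg.Agent.Helper8.o7920_five_two_arith Q T hdvd h2 hsq with ⟨χ, hX1, hX2, hε, hdeg⟩ | ⟨χ, hχ, hdeg⟩
  · have hval := Cfsg.Agent.Helper66.o7920_five_two_val hna Q hQ T c hc hcQ χ
      (by rw [hX1]; exact Finset.mem_singleton_self χ) hdeg
    have h210 := Cfsg.Agent.Helper8.o7920_five_two_cent Q T c hc χ hX1 hX2 hε hval
    have h720 : Nat.card (centralizer ({c} : Set G)) = 720 := by omega
    exact Cfsg.Agent.Helper10.o7920_no_index11 hG hna c y hc hyo hyc h720
      (fun g hg => Cfsg.Agent.Helper66.o7920_fix_coset hG Q _ hle y hyQ hy1 g hg)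
  · exact Cfsg.Agent.Helper66.o7920_five_two_neg hna Q hQ T c hc hcQ χ hχ hdeg

/-- the character degrees of a simple group of order 7920. -/
theorem degrees {G : Type u} [Group G] [Finite G] [IsSimpleGroup G]
    (hG : Nat.card G = 7920) :
    Nat.card (Cfsg.IrrCharacter G) = 10 ∧ ∀ n : ℕ,
      Nat.card {χ : Cfsg.IrrCharacter G // Cfsg.charDegree (χ : G → ℂ) = n} =
        (if n = 1 ∨ n = 11 ∨ n = 44 ∨ n = 45 ∨ n = 55 then 1 else if n = 10 then 3
          else if n = 16 then 2 else 0) := by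
  classical
  haveI : Fintype G := Fintype.ofFinite G
  haveI : Fintype (Cfsg.IrrCharacter G) := Fintype.ofFinite _
  haveI : Fact (Nat.Prime 5) := ⟨by norm_num⟩
  haveI : Fact (Nat.Prime 11) := ⟨by norm_num⟩
  obtain ⟨P⟩ : Nonempty (Sylow 11 G) := inferInstance
  obtain ⟨Q⟩ : Nonempty (Sylow 5 G) := inferInstance
  have hP : Nat.card (P : Subgroup G) = 11 := by
    have := sylow_card (p := 11) 1 720 (hG.trans (by norm_num)) (by norm_num) P
    simpa using this
  have hQ : Nat.card (Q : Subgroup G) = 5 := by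
    have := sylow_card (p := 5) 1 1584 (hG.trans (by norm_num)) (by norm_num) Q
    simpa using this
  have hna : ∃ a b : G, a * b ≠ b * a :=
    Ord459.exists_not_comm' Q (by rw [hQ]; norm_num) (by rw [hQ, hG]; norm_num)
  obtain ⟨h11, h5⟩ := Cfsg.Agent.Helper8.o7920_base hG
  have hdvd : ∀ χ : Cfsg.IrrCharacter G, Cfsg.charDegree (χ : G → ℂ) ∣ 7920 := fun χ => by
    have := Helper79.irr_charDegree_dvd_card χ
    rwa [hG] at this
  have hpos : ∀ χ : Cfsg.IrrCharacter G, 0 < Cfsg.charDegree (χ : G → ℂ) := fun χ =>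
    Nat.pos_of_dvd_of_pos (hdvd χ) (by norm_num)
  have h2 : ∀ χ : Cfsg.IrrCharacter G, χ ≠ Helper81.trivIrr G →
      2 ≤ Cfsg.charDegree (χ : G → ℂ) :=
    fun χ hχ => Helper9.BrauerP.two_le_charDegree hna χ hχ
  have hsq : ∑ χ : Cfsg.IrrCharacter G, Cfsg.charDegree (χ : G → ℂ) ^ 2 = 7920 := by
    have := Helper80.irr_finsum_charDegree_sq (G := G)
    rw [finsum_eq_sum_of_fintype, hG] at this
    exact this
  have hd1 : Cfsg.charDegree ((Helper81.trivIrr G : Cfsg.IrrCharacter G) : G → ℂ) = 1 := by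
    have h := Helper81.irr_one_eq_charDegree (Helper81.trivIrr G)
    rw [Helper81.trivIrr_apply] at h
    exact_mod_cast h.symm
  -- the principal 11-block
  obtain ⟨M11, hM11⟩ := Helper78.exists_isPModular 11 (by norm_num)
  have hq11 : (centralizer ((P : Subgroup G) : Set G)).relIndex
      (normalizer ((P : Subgroup G) : Set G)) = 5 :=
    Helper9.BrauerP.relIndex_of_card (P : Subgroup G) (by rw [(h11 P).1, (h11 P).2])
  obtain ⟨T11⟩ := Helper75.br_tab_exists 11 M11 hM11 (by norm_num) P hP 5 hq11 (by norm_num)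
  have hout11 : ∀ χ : Cfsg.IrrCharacter G, χ ∉ Cfsg.principalBlock M11 G →
      11 ∣ Cfsg.charDegree (χ : G → ℂ) := Cfsg.Agent.Helper8.br_outside_dvd hM11 P hP (h11 P).1
  -- the principal 5-block
  have hC5 := cent_five hG hna Q
  obtain ⟨M5, hM5⟩ := Helper78.exists_isPModular 5 (by norm_num)
  have hq5 : (centralizer ((Q : Subgroup G) : Set G)).relIndex
      (normalizer ((Q : Subgroup G) : Set G)) = 4 :=
    Helper9.BrauerP.relIndex_of_card (Q : Subgroup G) (by rw [(h5 Q).1, hC5])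
  obtain ⟨T5⟩ := Helper75.br_tab_exists 5 M5 hM5 (by norm_num) Q hQ 4 hq5 (by norm_num)
  have h5count := Cfsg.Agent.Helper73.o7920_five_count Q T5 (Cfsg.Agent.Helper8.br_outside_dvd hM5 Q hQ hC5)
  rcases Cfsg.Agent.Helper9.o7920_eleven_arith P T11 hdvd h2 hsq with ⟨c1, c2, c3, ha, hb, hc⟩ |
      ⟨c1, c2, c3, ha, hb, hc⟩
  · obtain ⟨l, hl, hmem, hmap⟩ := Cfsg.Agent.Helper73.o7920_block_list P T11 45 10 16 1 3 2 c1 c2 c3 hd1 ha hb hc
    obtain ⟨l', hl', hmap'⟩ := Cfsg.Agent.Helper67.o7920_final_A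
      (fun χ : Cfsg.IrrCharacter G => Cfsg.charDegree (χ : G → ℂ)) hdvd hsq h5count l hl
      (fun χ hχ => hout11 χ (fun h => hχ ((hmem χ).mpr h))) hmap
    exact Cfsg.Agent.Helper73.o7920_count_of_list _ hpos hsq l' hl' hmap'
  · obtain ⟨l, hl, hmem, hmap⟩ := Cfsg.Agent.Helper73.o7920_block_list P T11 12 10 5 2 2 2 c1 c2 c3 hd1 ha hb hc
    exact (Cfsg.Agent.Helper73.o7920_final_B
      (fun χ : Cfsg.IrrCharacter G => Cfsg.charDegree (χ : G → ℂ)) hdvd hsq h5count l hl
      (fun χ hχ => hout11 χ (fun h => hχ ((hmem χ).mpr h))) hmap).elim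

end Ord7920

end Cfsg.Agent.Helper8
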