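import Mathlib
import Cfsg.Agent.Helper8.Ord2Local

set_option autoImplicit false
set_option linter.style.haveILetI false
set_option maxHeartbeats 1000000

/-!
# Order 2016: the case `|N(P)| = 56`, `|C(P)| = 28` for a Sylow `7`-subgroup `P` (helper8)
-/

namespace Cfsg.Agent.Helper8

namespace Ord2016

open Subgroup Cfsg.Agent.Helper9.OrdTools Cfsg.Agent.Helper8.Ord459 Cfsg.Agent.Helper8.Ord2Local

variable {G : Type*} [Group G] [Finite G]

theorem arith_d : ∀ d, d ∣ 56 → 8 ∣ d → 7 ∣ d → d = 56 := by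
  intro d hd
  have hle : d ≤ 56 := Nat.le_of_dvd (by norm_num) hd
  revert hd
  have key : ∀ d ≤ 56, d ∣ 56 → 8 ∣ d → 7 ∣ d → d = 56 := by
    decide +kernel
  exact key d hle

theorem arith_n : ∀ n, n ∣ 36 → n % 7 = 1 → n = 1 ∨ n = 36 := by
  intro n hn
  have hle : n ≤ 36 := Nat.le_of_dvd (by norm_num) hn
  revert hn
  have key : ∀ n ≤ 36, n ∣ 36 → n % 7 = 1 → n = 1 ∨ n = 36 := by
    decide +kernel
  exact key n hle

theorem arith_sylow : ∀ n, n ∣ 288 → n % 7 = 1 → n = 1 ∨ n = 8 ∨ n = 36 ∨ n = 288 := by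
  intro n hn
  have hle : n ≤ 288 := Nat.le_of_dvd (by norm_num) hn
  revert hn
  have key : ∀ n ≤ 288, n ∣ 288 → n % 7 = 1 → n = 1 ∨ n = 8 ∨ n = 36 ∨ n = 288 := by
    decide +kernel
  exact key n hle

/-- the key step: the centralizer of a nonidentity element `u` of `C(P)` centralized by `T`
meets `S` in `T`. -/
theorem cent_in_T [IsSimpleGroup G] (hG : Nat.card G = 2016) (P : Sylow 7 G)
    (hP : Nat.card (P : Subgroup G) = 7)
    (hN : Nat.card (normalizer ((P : Subgroup G) : Set G)) = 56)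
    (S T : Subgroup G) (hTS : T ≤ S) (hTN : T ≤ normalizer ((P : Subgroup G) : Set G))
    (hT : Nat.card T = 8) (hS : Nat.card S = 32)
    (u : G) (hu1 : u ≠ 1) (huP : ∀ x ∈ (P : Subgroup G), x * u = u * x)
    (huT : ∀ v ∈ T, v * u = u * v) :
    ∀ g ∈ S, g * u = u * g → g ∈ T := by
  haveI : Fact (Nat.Prime 7) := ⟨by norm_num⟩
  obtain ⟨X, hXdef⟩ : ∃ X : Subgroup G, X = centralizer ({u} : Set G) := ⟨_, rfl⟩
  have hmemX : ∀ x, x ∈ X ↔ x * u = u * x := by
    intro x
    rw [hXdef, Subgroup.mem_centralizer_iff]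
    constructor
    · intro h; exact (h u rfl).symm
    · intro h y hy; rw [Set.mem_singleton_iff.mp hy]; exact h.symm
  have hPX : (P : Subgroup G) ≤ X := fun x hx => (hmemX x).mpr (huP x hx)
  have hTX : T ≤ X := fun x hx => (hmemX x).mpr (huT x hx)
  obtain ⟨n, hn7, hXcard⟩ := sylow_count_subgroup P X hPX
  obtain ⟨N, hNdef⟩ : ∃ N, N = normalizer ((P : Subgroup G) : Set G) := ⟨_, rfl⟩
  rw [← hNdef] at hN hTN hXcard
  have hPN : (P : Subgroup G) ≤ N := hNdef ▸ Subgroup.le_normalizer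
  have hd1 : Nat.card (X ⊓ N : Subgroup G) ∣ 56 := hN ▸ Subgroup.card_dvd_of_le inf_le_right
  have hd2 : 8 ∣ Nat.card (X ⊓ N : Subgroup G) := hT ▸ Subgroup.card_dvd_of_le (le_inf hTX hTN)
  have hd3 : 7 ∣ Nat.card (X ⊓ N : Subgroup G) :=
    hP ▸ Subgroup.card_dvd_of_le (le_inf hPX hPN)
  have hXG : Nat.card X ∣ 2016 := hG ▸ Subgroup.card_subgroup_dvd_card X
  have hna : ∃ a b : G, a * b ≠ b * a :=
    exists_not_comm' P (by rw [hP]; norm_num) (by rw [hP, hG]; norm_num)
  have hXc : Nat.card X = 56 := by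
    have hd := arith_d _ hd1 hd2 hd3
    rw [hd] at hXcard
    have hn' : n ∣ 36 := by
      rw [hXcard] at hXG
      have h3 : (2016 : ℕ) = 56 * 36 := by norm_num
      rw [h3] at hXG
      exact Nat.dvd_of_mul_dvd_mul_left (by norm_num) hXG
    rcases arith_n n hn' hn7 with h1 | h1
    · rw [hXcard, h1]
    · exfalso
      rw [h1] at hXcard
      have hXtop : X = ⊤ := by
        apply (Subgroup.card_eq_iff_eq_top X).mp
        rw [hXcard, hG]
      apply hu1
      apply eq_one_of_central hna u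
      intro g
      exact (hmemX g).mp (hXtop ▸ Subgroup.mem_top g)
  intro g hgS hgu
  have hgX : g ∈ X := (hmemX g).mpr hgu
  have hTle : T ≤ S ⊓ X := le_inf hTS hTX
  have hc1 : Nat.card (S ⊓ X : Subgroup G) ∣ 32 := hS ▸ Subgroup.card_dvd_of_le inf_le_left
  have hc2 : Nat.card (S ⊓ X : Subgroup G) ∣ Nat.card X := Subgroup.card_dvd_of_le inf_le_right
  have hc3 : Nat.card (S ⊓ X : Subgroup G) ∣ 8 := by
    rw [hXc] at hc2
    have := Nat.dvd_gcd hc1 hc2
    norm_num at this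
    exact this
  have hle : Nat.card (S ⊓ X : Subgroup G) ≤ Nat.card T := by
    rw [hT]; exact Nat.le_of_dvd (by norm_num) hc3
  have heq : T = S ⊓ X := Subgroup.eq_of_le_of_card_ge hTle hle
  rw [heq]
  exact ⟨hgS, hgX⟩

/-- No simple group of order `2016` has a Sylow `7`-subgroup `P` with `|N(P)| = 56` and
`|C(P)| = 28`. -/
theorem ord2016_case [IsSimpleGroup G] (hG : Nat.card G = 2016) (P : Sylow 7 G)
    (hP : Nat.card (P : Subgroup G) = 7)
    (hN : Nat.card (normalizer ((P : Subgroup G) : Set G)) = 56)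
    (hC : Nat.card (centralizer ((P : Subgroup G) : Set G)) = 28) : False := by
  obtain ⟨K, T, S, hK, hKC, hT, hKT, hTN, hS, hTS⟩ :=
    exists_KTS (centralizer ((P : Subgroup G) : Set G)) (normalizer ((P : Subgroup G) : Set G))
      (Subgroup.centralizer_le_normalizer _) (by rw [hC]; norm_num) (by rw [hN]; norm_num) 5
      (by rw [hG]; norm_num) (by norm_num)
  have hS32 : Nat.card S = 32 := by rw [hS]; norm_num
  have hcent : ∀ u ∈ K, ∀ x ∈ (P : Subgroup G), x * u = u * x := by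
    intro u hu x hx
    exact Subgroup.mem_centralizer_iff.mp (hKC hu) x hx
  refine two_local_contra hKT hTS hT hK 4 (by rw [hS]) (by rw [hS32]; norm_num) ?_
  intro u hu hu1 huT
  exact cent_in_T hG P hP hN S T hTS hTN hT hS32 u hu1 (hcent u hu) huT

end Ord2016

end Cfsg.Agent.Helper8
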