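import Mathlib
import Cfsg.Agent.Helper72.ClassGraph
import Cfsg.Agent.S3993

/-!
# Tools for class sizes of `p`-singular elements (helper8)

* `psElt p x` : `x` is a `p`-element (`x ^ p ^ k = 1` for some `k`);
* `ps_cent_mul` : the centralizer of a product of commuting elements of coprime orders;
* `ps_comm_conj` : commuting elements whose classes have coprime sizes have commuting normal
  closures;
* `ps_exists_conj_commute` : an element of `p'` class size commutes with a conjugate of any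
  `p`-element;
* `ps_decomp` : decomposition of an element into its `p`-part and `p'`-part;
* `ps_mem_sylow_of_central` : if every `p'`-element has a class of `p'` size then every
  `p`-element lies in every Sylow `p`-subgroup (Frobenius counting).
-/

set_option autoImplicit false

namespace Cfsg.Agent.Helper8

open Cfsg.Agent.Helper72
open scoped Pointwise

universe u

section PsBasic
variable {G : Type u} [Group G]

/-- `x` is a `p`-element. -/
def psElt (p : ℕ) (x : G) : Prop := ∃ k : ℕ, x ^ (p ^ k) = 1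

theorem psElt_one (p : ℕ) : psElt p (1 : G) := ⟨0, by simp⟩

theorem psElt_inv {p : ℕ} {x : G} (h : psElt p x) : psElt p x⁻¹ := by
  obtain ⟨k, hk⟩ := h
  exact ⟨k, by rw [inv_pow, hk, inv_one]⟩

theorem psElt_conj {p : ℕ} {x : G} (h : psElt p x) (g : G) : psElt p (g * x * g⁻¹) := by
  obtain ⟨k, hk⟩ := h
  refine ⟨k, ?_⟩
  rw [conj_pow, hk]
  simp

theorem psElt_pow {p : ℕ} {x : G} (h : psElt p x) (n : ℕ) : psElt p (x ^ n) := by
  obtain ⟨k, hk⟩ := h
  exact ⟨k, by rw [← pow_mul, mul_comm, pow_mul, hk, one_pow]⟩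

theorem psElt_zpow {p : ℕ} {x : G} (h : psElt p x) (n : ℤ) : psElt p (x ^ n) := by
  obtain ⟨k, hk⟩ := h
  refine ⟨k, ?_⟩
  rw [← zpow_natCast, ← zpow_mul, mul_comm, zpow_mul, zpow_natCast, hk, one_zpow]

theorem psElt_mul {p : ℕ} {x y : G} (hx : psElt p x) (hy : psElt p y) (hc : Commute x y) :
    psElt p (x * y) := by
  obtain ⟨k, hk⟩ := hx
  obtain ⟨l, hl⟩ := hy
  refine ⟨k + l, ?_⟩
  have h1 : x ^ p ^ (k + l) = 1 := by rw [pow_add, pow_mul, hk, one_pow]
  have h2 : y ^ p ^ (k + l) = 1 := by rw [pow_add, mul_comm, pow_mul, hl, one_pow]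
  rw [hc.mul_pow, h1, h2, one_mul]

theorem psElt_orderOf {p : ℕ} [hp : Fact p.Prime] {x : G} (h : psElt p x) :
    ∃ j : ℕ, orderOf x = p ^ j := by
  obtain ⟨k, hk⟩ := h
  obtain ⟨j, -, hj⟩ := (Nat.dvd_prime_pow hp.out).mp (orderOf_dvd_of_pow_eq_one hk)
  exact ⟨j, hj⟩

theorem psElt_of_orderOf {p : ℕ} {x : G} {j : ℕ} (h : orderOf x = p ^ j) : psElt p x :=
  ⟨j, by rw [← h, pow_orderOf_eq_one]⟩

theorem psElt_dvd {p : ℕ} [hp : Fact p.Prime] {x : G} (h : psElt p x) (h1 : x ≠ 1) :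
    p ∣ orderOf x := by
  obtain ⟨j, hj⟩ := psElt_orderOf h
  rcases Nat.eq_zero_or_pos j with h0 | h0
  · rw [h0, pow_zero, orderOf_eq_one_iff] at hj
    exact absurd hj h1
  · rw [hj]
    exact dvd_pow_self p h0.ne'

theorem psElt_isPGroup {p : ℕ} [hp : Fact p.Prime] {x : G} (h : psElt p x) :
    IsPGroup p (Subgroup.zpowers x) := by
  obtain ⟨j, hj⟩ := psElt_orderOf h
  exact IsPGroup.of_card (n := j) (by rw [Nat.card_zpowers, hj])

theorem ps_mem_cz {c x : G} : c ∈ Subgroup.centralizer ({x} : Set G) ↔ Commute c x :=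
  Subgroup.mem_centralizer_singleton_iff

/-- Coprime powers determine an element killed by the other exponent. -/
theorem ps_eq_of_pow_eq {y y' : G} {a b : ℕ} (hab : Nat.Coprime a b) (hy : y ^ b = 1)
    (hy' : y' ^ b = 1) (h : y ^ a = y' ^ a) : y = y' := by
  have h1 : (1 : ℤ) = a * Nat.gcdA a b + b * Nat.gcdB a b := by
    rw [← Nat.gcd_eq_gcd_ab, hab]; rfl
  have key : ∀ z : G, z ^ b = 1 → z = (z ^ a) ^ (Nat.gcdA a b) := by
    intro z hz
    have h2 : z = (z ^ a) ^ (Nat.gcdA a b) * (z ^ b) ^ (Nat.gcdB a b) := by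
      rw [← zpow_natCast, ← zpow_natCast, ← zpow_mul, ← zpow_mul, ← zpow_add, ← h1, zpow_one]
    rw [hz, one_zpow, mul_one] at h2
    exact h2
  rw [key y hy, key y' hy', h]

/-- Centralizer of a product of commuting elements of coprime orders. -/
theorem ps_cent_mul {x y : G} (hc : Commute x y) (hcop : Nat.Coprime (orderOf x) (orderOf y)) :
    Subgroup.centralizer ({x * y} : Set G)
      = Subgroup.centralizer ({x} : Set G) ⊓ Subgroup.centralizer ({y} : Set G) := by
  ext c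
  rw [Subgroup.mem_inf, ps_mem_cz, ps_mem_cz, ps_mem_cz]
  constructor
  · intro h
    have hx : x ∈ Subgroup.centralizer ({c} : Set G) := by
      apply Helper67.mem_of_coprime_pow_mem _ x hcop.symm
      · rw [ps_mem_cz]
        have h1 : Commute c ((x * y) ^ orderOf y) := h.pow_right _
        rw [hc.mul_pow, pow_orderOf_eq_one, mul_one] at h1
        exact h1.symm
      · rw [pow_orderOf_eq_one]; exact Subgroup.one_mem _
    have hy : y ∈ Subgroup.centralizer ({c} : Set G) := by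
      apply Helper67.mem_of_coprime_pow_mem _ y hcop
      · rw [ps_mem_cz]
        have h1 : Commute c ((x * y) ^ orderOf x) := h.pow_right _
        rw [hc.mul_pow, pow_orderOf_eq_one, one_mul] at h1
        exact h1.symm
      · rw [pow_orderOf_eq_one]; exact Subgroup.one_mem _
    exact ⟨(ps_mem_cz.mp hx).symm, (ps_mem_cz.mp hy).symm⟩
  · rintro ⟨h1, h2⟩
    exact h1.mul_right h2

theorem ps_cs_dvd_mul_left [Finite G] {x y : G} (hc : Commute x y)
    (hcop : Nat.Coprime (orderOf x) (orderOf y)) : cgCs x ∣ cgCs (x * y) := by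
  unfold cgCs
  rw [ps_cent_mul hc hcop]
  exact Subgroup.index_dvd_of_le inf_le_left

theorem ps_cs_dvd_mul_right [Finite G] {x y : G} (hc : Commute x y)
    (hcop : Nat.Coprime (orderOf x) (orderOf y)) : cgCs y ∣ cgCs (x * y) := by
  unfold cgCs
  rw [ps_cent_mul hc hcop]
  exact Subgroup.index_dvd_of_le inf_le_right

/-- Class size of a power divides the class size. -/
theorem ps_cs_pow_dvd [Finite G] (x : G) (n : ℕ) : cgCs (x ^ n) ∣ cgCs x := by
  unfold cgCs
  apply Subgroup.index_dvd_of_le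
  intro c hc
  rw [ps_mem_cz] at hc ⊢
  exact hc.pow_right n

/-- Commuting elements whose classes have coprime sizes: all conjugates commute. -/
theorem ps_comm_conj [Finite G] {x y : G} (hcop : Nat.Coprime (cgCs x) (cgCs y))
    (hc : Commute x y) (g k : G) : Commute (g * x * g⁻¹) (k * y * k⁻¹) := by
  have key : ∀ u : G, Commute x (u * y * u⁻¹) := by
    intro u
    obtain ⟨c, hc1, hc2⟩ := Helper69.exists_mem_mul_of_coprime_index
      (Subgroup.centralizer ({y} : Set G)) (Subgroup.centralizer ({x} : Set G)) hcop.symm u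
    rw [ps_mem_cz] at hc1 hc2
    have h1 : u * y * u⁻¹ = c * y * c⁻¹ := by
      have h2 : (c⁻¹ * u) * y = y * (c⁻¹ * u) := hc2.eq
      calc u * y * u⁻¹ = c * ((c⁻¹ * u) * y) * u⁻¹ := by group
        _ = c * (y * (c⁻¹ * u)) * u⁻¹ := by rw [h2]
        _ = c * y * c⁻¹ := by group
    rw [h1]
    exact (hc1.symm.mul_right hc).mul_right hc1.symm.inv_right
  have h := key (g⁻¹ * k)
  have e1 : g * x * g⁻¹ * (k * y * k⁻¹) = g * (x * (g⁻¹ * k * y * (g⁻¹ * k)⁻¹)) * g⁻¹ := by group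
  have e2 : k * y * k⁻¹ * (g * x * g⁻¹) = g * ((g⁻¹ * k * y * (g⁻¹ * k)⁻¹) * x) * g⁻¹ := by group
  show g * x * g⁻¹ * (k * y * k⁻¹) = k * y * k⁻¹ * (g * x * g⁻¹)
  rw [e1, e2, h.eq]

/-- An element of `p'` class size commutes with some conjugate of any `p`-element. -/
theorem ps_exists_conj_commute [Finite G] (p : ℕ) [Fact p.Prime] {x y : G}
    (hx : ¬ p ∣ cgCs x) (hy : psElt p y) : ∃ g : G, Commute x (g * y * g⁻¹) := by
  obtain ⟨P, hP⟩ := cg_exists_sylow_le p (Subgroup.centralizer ({x} : Set G)) hx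
  obtain ⟨Q, hQ⟩ := (psElt_isPGroup hy).exists_le_sylow
  obtain ⟨g, hg⟩ := MulAction.exists_smul_eq G Q P
  refine ⟨g, ?_⟩
  have h1 : y ∈ (Q : Subgroup G) := hQ (Subgroup.mem_zpowers y)
  have h2 : g * y * g⁻¹ ∈ (P : Subgroup G) := by
    rw [← hg, Sylow.coe_subgroup_smul]
    have h3 : MulAut.conj g • y ∈ MulAut.conj g • (Q : Subgroup G) :=
      Subgroup.smul_mem_pointwise_smul _ _ _ h1
    simpa [MulAut.smul_def] using h3
  exact (ps_mem_cz.mp (hP h2)).symm

/-- Decomposition into `p`-part and `p'`-part. -/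
theorem ps_decomp [Finite G] (p : ℕ) [hp : Fact p.Prime] (c : G) :
    ∃ u v : G, u ∈ Subgroup.zpowers c ∧ v ∈ Subgroup.zpowers c ∧ psElt p u ∧
      Nat.Coprime (orderOf v) p ∧ c = u * v := by
  obtain ⟨k, m, hm, hkm⟩ :=
    Nat.exists_eq_pow_mul_and_not_dvd (orderOf_pos c).ne' p hp.out.ne_one
  have hcop : Nat.Coprime m (p ^ k) :=
    Nat.Coprime.pow_right k ((Nat.Prime.coprime_iff_not_dvd hp.out).mpr hm).symm
  have h1 : (1 : ℤ) = m * Nat.gcdA m (p ^ k) + (p ^ k : ℕ) * Nat.gcdB m (p ^ k) := by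
    rw [← Nat.gcd_eq_gcd_ab, hcop]; rfl
  refine ⟨(c ^ m) ^ (Nat.gcdA m (p ^ k)), (c ^ (p ^ k)) ^ (Nat.gcdB m (p ^ k)), ?_, ?_, ?_, ?_, ?_⟩
  · exact Subgroup.zpow_mem _ (Subgroup.pow_mem _ (Subgroup.mem_zpowers c) _) _
  · exact Subgroup.zpow_mem _ (Subgroup.pow_mem _ (Subgroup.mem_zpowers c) _) _
  · apply psElt_zpow
    refine ⟨k, ?_⟩
    rw [← pow_mul, mul_comm, ← hkm, pow_orderOf_eq_one]
  · have h2 : ((c ^ (p ^ k)) ^ (Nat.gcdB m (p ^ k))) ^ m = 1 := by
      rw [← zpow_natCast, ← zpow_mul, mul_comm, zpow_mul, zpow_natCast, ← pow_mul, ← hkm,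
        pow_orderOf_eq_one, one_zpow]
    exact Nat.Coprime.coprime_dvd_left (orderOf_dvd_of_pow_eq_one h2)
      ((Nat.Prime.coprime_iff_not_dvd hp.out).mpr hm).symm
  · rw [← zpow_natCast, ← zpow_natCast, ← zpow_mul, ← zpow_mul, ← zpow_add, ← h1, zpow_one]

/-- If every `p'`-element has a conjugacy class of size prime to `p`, then every `p`-element lies
in every Sylow `p`-subgroup (so the Sylow `p`-subgroup is normal).  Frobenius counting. -/
theorem ps_mem_sylow_of_central [Finite G] (p : ℕ) [hp : Fact p.Prime]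
    (h : ∀ y : G, Nat.Coprime (orderOf y) p → ¬ p ∣ cgCs y)
    (x : G) (hx : psElt p x) (P : Sylow p G) : x ∈ (P : Subgroup G) := by
  classical
  have : Fintype G := Fintype.ofFinite G
  obtain ⟨n, m, hm, hnm⟩ :=
    Nat.exists_eq_pow_mul_and_not_dvd (Nat.card_pos (α := G)).ne' p hp.out.ne_one
  have hmp : Nat.Coprime m p := ((Nat.Prime.coprime_iff_not_dvd hp.out).mpr hm).symm
  have hcopm : Nat.Coprime (p ^ n) m := (Nat.Coprime.pow_right n hmp).symm
  have hm0 : m ≠ 0 := by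
    rintro rfl
    rw [mul_zero] at hnm
    exact (Nat.card_pos (α := G)).ne' hnm
  have hfac : (Nat.card G).factorization p = n := by
    rw [hnm, Nat.factorization_mul (pow_ne_zero n hp.out.ne_zero) hm0, Finsupp.add_apply,
      Nat.factorization_eq_zero_of_not_dvd hm, add_zero, Nat.Prime.factorization_pow hp.out,
      Finsupp.single_eq_same]
  have hPcard : ∀ Q : Sylow p G, Nat.card (Q : Subgroup G) = p ^ n := by
    intro Q; rw [Sylow.card_eq_multiplicity, hfac]
  let Y := {y : G // y ^ m = 1}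
  have : Fintype Y := Fintype.ofFinite Y
  have hY : m ∣ Nat.card Y := Cfsg.Agent.S3993.result m (by rw [hnm]; exact Dvd.intro_left _ rfl)
  let y₁ : Y := ⟨1, one_pow m⟩
  have hYpos : 0 < Nat.card Y := Nat.card_pos_iff.mpr ⟨⟨y₁⟩, inferInstance⟩
  have hYge : m ≤ Nat.card Y := Nat.le_of_dvd hYpos hY
  let F : Y → Type u := fun y => {z : G // z ^ (p ^ n) = 1 ∧ Commute z y.1}
  have hQpow : ∀ (Q : Sylow p G) (q : G), q ∈ (Q : Subgroup G) → q ^ (p ^ n) = 1 := by
    intro Q q hq
    have h1 : (⟨q, hq⟩ : (Q : Subgroup G)) ^ Nat.card (Q : Subgroup G) = 1 := pow_card_eq_one'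
    rw [hPcard Q] at h1
    exact congrArg Subtype.val h1
  have hF : ∀ y : Y, p ^ n ≤ Nat.card (F y) := by
    intro y
    have hy : Nat.Coprime (orderOf y.1) p :=
      Nat.Coprime.coprime_dvd_left (orderOf_dvd_of_pow_eq_one y.2) hmp
    obtain ⟨Q, hQ⟩ := cg_exists_sylow_le p _ (h y.1 hy)
    rw [← hPcard Q]
    apply Nat.card_le_card_of_injective
      (fun q : (Q : Subgroup G) => (⟨q.1, hQpow Q q.1 q.2, (ps_mem_cz.mp (hQ q.2))⟩ : F y))
    intro q₁ q₂ hq
    apply Subtype.ext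
    have h1 := congrArg (fun w : F y => (w.1 : G)) hq
    exact h1
  have hinj : Function.Injective (fun z : (Σ y : Y, F y) => z.1.1 * z.2.1) := by
    rintro ⟨⟨y, hy⟩, ⟨z, hz1, hz2⟩⟩ ⟨⟨y', hy'⟩, ⟨z', hz1', hz2'⟩⟩ hzz
    simp only at hzz
    have hz2c : Commute z y := hz2
    have hz2c' : Commute z' y' := hz2'
    have e1 : y ^ (p ^ n) = y' ^ (p ^ n) := by
      have h1 : (y * z) ^ (p ^ n) = y ^ (p ^ n) := by
        rw [hz2c.symm.mul_pow, hz1, mul_one]
      have h2 : (y' * z') ^ (p ^ n) = y' ^ (p ^ n) := by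
        rw [hz2c'.symm.mul_pow, hz1', mul_one]
      rw [← h1, ← h2, hzz]
    have e2 : y = y' := ps_eq_of_pow_eq hcopm hy hy' e1
    subst e2
    have e3 : z = z' := mul_left_cancel hzz
    subst e3
    rfl
  have hle : Nat.card (Σ y : Y, F y) ≤ Nat.card G := Nat.card_le_card_of_injective _ hinj
  rw [Nat.card_sigma] at hle
  have hsum : Nat.card (F y₁) + (Fintype.card Y - 1) * p ^ n ≤ ∑ y : Y, Nat.card (F y) := by
    rw [← Finset.add_sum_erase Finset.univ (fun y => Nat.card (F y)) (Finset.mem_univ y₁)]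
    apply Nat.add_le_add_left
    have h1 := Finset.card_nsmul_le_sum (Finset.univ.erase y₁) (fun y => Nat.card (F y)) (p ^ n)
      (fun y _ => hF y)
    rw [Finset.card_erase_of_mem (Finset.mem_univ y₁), Finset.card_univ, smul_eq_mul] at h1
    exact h1
  have hF1 : Nat.card (F y₁) ≤ p ^ n := by
    have h1 : Nat.card (F y₁) + (Fintype.card Y - 1) * p ^ n ≤ p ^ n * m := by
      rw [← hnm]; exact hsum.trans hle
    have h2 : m - 1 ≤ Fintype.card Y - 1 := by
      rw [← Nat.card_eq_fintype_card]; exact Nat.sub_le_sub_right hYge 1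
    have h3 : (m - 1) * p ^ n ≤ (Fintype.card Y - 1) * p ^ n := Nat.mul_le_mul_right _ h2
    obtain ⟨m', rfl⟩ : ∃ m', m = m' + 1 := ⟨m - 1, by omega⟩
    have h4 : p ^ n * (m' + 1) = m' * p ^ n + p ^ n := by ring
    simp only [Nat.add_sub_cancel] at h3
    omega
  -- the Sylow subgroup `P` is exactly the set of solutions of `z ^ p ^ n = 1`
  have hbij : Function.Bijective
      (fun q : (P : Subgroup G) => (⟨q.1, hQpow P q.1 q.2, Commute.one_right _⟩ : F y₁)) := by
    apply Function.Injective.bijective_of_nat_card_le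
    · intro q₁ q₂ hq
      apply Subtype.ext
      have h1 := congrArg (fun w : F y₁ => (w.1 : G)) hq
      exact h1
    · rw [hPcard P]; exact hF1
  have hxpow : x ^ (p ^ n) = 1 := by
    obtain ⟨j, hj⟩ := psElt_orderOf hx
    have h1 : p ^ j ∣ p ^ n * m := by rw [← hj, ← hnm]; exact orderOf_dvd_natCard x
    have h2 : p ^ j ∣ p ^ n := Nat.Coprime.dvd_of_dvd_mul_right (Nat.Coprime.pow_left j hmp.symm) h1
    rw [← hj] at h2
    exact orderOf_dvd_iff_pow_eq_one.mp h2
  obtain ⟨q, hq⟩ := hbij.2 (⟨x, hxpow, Commute.one_right _⟩ : F y₁)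
  have : q.1 = x := congrArg Subtype.val hq
  rw [← this]
  exact q.2

end PsBasic

end Cfsg.Agent.Helper8
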