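import Cfsg.Agent.Helper8.PSing1

/-!
# Class sizes of `p`-singular elements: the configuration of an unlinked pair (helper8)

Two nontrivial `p`-elements `a`, `b` are *unlinked* if no `p`-singular `w` has a class size
sharing a prime with both `|a^G|` and `|b^G|`.  `ps_step3` shows that (when `p ∤ |Z(G)|`) the one
with the smaller class, `e`, generates an abelian normal `p`-subgroup, has `p'` class size, and the
other one `f` has class size divisible by `p`.  `PsCfg` records this configuration and the file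
develops its consequences: all `p`-elements centralize `A = ⟨e^G⟩`, `C_G(e) = C_G(A)`, the
`p`-elements form a subgroup `P`, and `p'`-elements of `C_G(A)` centralize `P`.
-/

set_option autoImplicit false

namespace Cfsg.Agent.Helper8

open Cfsg.Agent.Helper72
open scoped Pointwise

universe u

section PsCfgSec
variable {G : Type u} [Group G]

theorem ps_not_center [Finite G] (p : ℕ) [Fact p.Prime] (hZ : ¬ p ∣ Nat.card (Subgroup.center G)) {x : G}
    (hx : p ∣ orderOf x) : cgCs x ≠ 1 := by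
  intro h
  rw [cgCs_eq_one_iff] at h
  apply hZ
  have h1 : orderOf (⟨x, h⟩ : Subgroup.center G) = orderOf x := Subgroup.orderOf_mk x h
  rw [← h1] at hx
  exact hx.trans (orderOf_dvd_natCard _)

/-- The closure of a set of pairwise commuting `p`-elements is abelian and consists of
`p`-elements. -/
theorem ps_closure_pelt {p : ℕ} {S : Set G} (hS : ∀ x ∈ S, psElt p x)
    (hcomm : ∀ x ∈ S, ∀ y ∈ S, Commute x y) :
    (∀ u ∈ Subgroup.closure S, ∀ v ∈ Subgroup.closure S, Commute u v) ∧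
      (∀ u ∈ Subgroup.closure S, psElt p u) := by
  have h1 : ∀ x ∈ S, ∀ v ∈ Subgroup.closure S, Commute x v := by
    intro x hx v hv
    induction hv using Subgroup.closure_induction with
    | mem y hy => exact hcomm x hx y hy
    | one => exact Commute.one_right x
    | mul a b _ _ iha ihb => exact iha.mul_right ihb
    | inv a _ iha => exact iha.inv_right
  have h2 : ∀ u ∈ Subgroup.closure S, ∀ v ∈ Subgroup.closure S, Commute u v := by
    intro u hu v hv
    induction hu using Subgroup.closure_induction with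
    | mem y hy => exact h1 y hy v hv
    | one => exact Commute.one_left v
    | mul a b _ _ iha ihb => exact iha.mul_left ihb
    | inv a _ iha => exact iha.inv_left
  refine ⟨h2, ?_⟩
  intro u hu
  induction hu using Subgroup.closure_induction with
  | mem y hy => exact hS y hy
  | one => exact psElt_one p
  | mul a b ha hb iha ihb => exact psElt_mul iha ihb (h2 a ha b hb)
  | inv a _ iha => exact psElt_inv iha

/-- The closure of a conjugation-invariant set is normal. -/
theorem ps_closure_normal (s : Set G) (hs : ∀ x ∈ s, ∀ g : G, g * x * g⁻¹ ∈ s) :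
    (Subgroup.closure s).Normal := by
  refine ⟨fun n hn g => ?_⟩
  induction hn using Subgroup.closure_induction with
  | mem x hx => exact Subgroup.subset_closure (hs x hx g)
  | one => simp
  | mul a b _ _ iha ihb =>
    have e : g * (a * b) * g⁻¹ = (g * a * g⁻¹) * (g * b * g⁻¹) := by group
    rw [e]; exact Subgroup.mul_mem _ iha ihb
  | inv a _ iha =>
    have e : g * a⁻¹ * g⁻¹ = (g * a * g⁻¹)⁻¹ := by group
    rw [e]; exact Subgroup.inv_mem _ iha

/-- A `p`-element has a conjugate in any given Sylow `p`-subgroup. -/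
theorem ps_conj_mem_sylow [Finite G] {p : ℕ} [Fact p.Prime] (P : Sylow p G) {y : G} (hy : psElt p y) :
    ∃ g : G, g * y * g⁻¹ ∈ (P : Subgroup G) := by
  obtain ⟨Q, hQ⟩ := (psElt_isPGroup hy).exists_le_sylow
  obtain ⟨g, hg⟩ := MulAction.exists_smul_eq G Q P
  refine ⟨g, ?_⟩
  rw [← hg, Sylow.coe_subgroup_smul]
  have h3 : MulAut.conj g • y ∈ MulAut.conj g • (Q : Subgroup G) :=
    Subgroup.smul_mem_pointwise_smul _ _ _ (hQ (Subgroup.mem_zpowers y))
  simpa [MulAut.smul_def] using h3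

/-- The set of conjugates of `e`. -/
def psS (e : G) : Set G := {x | ∃ g : G, x = g * e * g⁻¹}

/-- The normal closure of `e`. -/
def psA (e : G) : Subgroup G := Subgroup.closure (psS e)

/-- The centralizer of the normal closure of `e`. -/
def psC (e : G) : Subgroup G := Subgroup.centralizer (psA e : Set G)

theorem psA_normal (e : G) : (psA e).Normal :=
  ps_closure_normal _ (by
    rintro x ⟨u, rfl⟩ g
    exact ⟨g * u, by group⟩)

theorem psC_normal (e : G) : (psC e).Normal := by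
  have := psA_normal e
  exact Subgroup.normal_centralizer

theorem ps_mem_C_iff {e c : G} : c ∈ psC e ↔ ∀ g : G, Commute c (g * e * g⁻¹) := by
  constructor
  · intro hc g
    have h1 : g * e * g⁻¹ ∈ psA e := Subgroup.subset_closure ⟨g, rfl⟩
    exact ((Subgroup.mem_centralizer_iff.mp hc) _ h1).symm
  · intro hc
    rw [psC, Subgroup.mem_centralizer_iff]
    have h1 : psA e ≤ Subgroup.centralizer ({c} : Set G) := by
      rw [psA, Subgroup.closure_le]
      rintro x ⟨g, rfl⟩
      exact ps_mem_cz.mpr (hc g).symm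
    intro a ha
    exact (ps_mem_cz.mp (h1 ha)).eq

/-- First structural step for an unlinked pair with `|a^G| < |b^G|`. -/
theorem ps_step3 [Finite G] (p : ℕ) [hp : Fact p.Prime] (hZ : ¬ p ∣ Nat.card (Subgroup.center G))
    {a b : G} (ha : psElt p a) (ha1 : a ≠ 1) (hb : psElt p b)
    (hunl : ∀ w : G, p ∣ orderOf w →
      Nat.Coprime (cgCs w) (cgCs a) ∨ Nat.Coprime (cgCs w) (cgCs b))
    (hlt : cgCs a < cgCs b) :
    (¬ p ∣ cgCs a) ∧ p ∣ cgCs b ∧ (∀ g k : G, Commute (g * a * g⁻¹) (k * a * k⁻¹)) ∧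
      (∀ g k : G, Commute (g * a * g⁻¹) (k * b * k⁻¹)) := by
  have hpa : p ∣ orderOf a := psElt_dvd ha ha1
  have hca : cgCs a ≠ 1 := ps_not_center p hZ hpa
  have hcop : Nat.Coprime (cgCs a) (cgCs b) := by
    rcases hunl a hpa with h | h
    · exact absurd ((Nat.coprime_self _).mp h) hca
    · exact h
  have hex : ∃ g : G, Commute a (g * b * g⁻¹) := by
    by_cases h1 : p ∣ cgCs a
    · have h2 : ¬ p ∣ cgCs b := fun h2 =>
        hp.out.one_lt.ne' (Nat.eq_one_of_dvd_coprimes hcop h1 h2)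
      obtain ⟨g, hg⟩ := ps_exists_conj_commute p h2 ha
      refine ⟨g⁻¹, ?_⟩
      have h3 : b * (g * a * g⁻¹) = g * a * g⁻¹ * b := hg.eq
      show a * (g⁻¹ * b * g⁻¹⁻¹) = g⁻¹ * b * g⁻¹⁻¹ * a
      calc a * (g⁻¹ * b * g⁻¹⁻¹) = g⁻¹ * (g * a * g⁻¹ * b) * g := by group
        _ = g⁻¹ * (b * (g * a * g⁻¹)) * g := by rw [h3]
        _ = g⁻¹ * b * g⁻¹⁻¹ * a := by group
    · exact ps_exists_conj_commute p h1 hb
  obtain ⟨g₀, hg₀⟩ := hex
  have hcop' : Nat.Coprime (cgCs a) (cgCs (g₀ * b * g₀⁻¹)) := by rw [cgCs_conj]; exact hcop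
  have hab : ∀ g k : G, Commute (g * a * g⁻¹) (k * b * k⁻¹) := by
    intro g k
    have h := ps_comm_conj hcop' hg₀ g (k * g₀⁻¹)
    have e : k * g₀⁻¹ * (g₀ * b * g₀⁻¹) * (k * g₀⁻¹)⁻¹ = k * b * k⁻¹ := by group
    rw [e] at h
    exact h
  have hmul : ∀ x y : G, (∃ g, x = g * a * g⁻¹) → (∃ k, y = k * b * k⁻¹) →
      Nat.Coprime (cgCs x) (cgCs y) ∧ cgCs (x * y) = cgCs y := by
    rintro x y ⟨g, rfl⟩ ⟨k, rfl⟩
    have hc := hab g k
    have hcs1 : cgCs (g * a * g⁻¹) = cgCs a := cgCs_conj g a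
    have hcs2 : cgCs (k * b * k⁻¹) = cgCs b := cgCs_conj k b
    have hcop2 : Nat.Coprime (cgCs (g * a * g⁻¹)) (cgCs (k * b * k⁻¹)) := by
      rw [hcs1, hcs2]; exact hcop
    refine ⟨hcop2, ?_⟩
    have hne : g * a * g⁻¹ * (k * b * k⁻¹) ≠ 1 := by
      intro h1
      have h2 : k * b * k⁻¹ = (g * a * g⁻¹)⁻¹ := eq_inv_of_mul_eq_one_right h1
      have h3 : cgCs b = cgCs a := by rw [← hcs2, h2, cgCs_inv, hcs1]
      omega
    have hpel : psElt p (g * a * g⁻¹ * (k * b * k⁻¹)) :=
      psElt_mul (psElt_conj ha g) (psElt_conj hb k) hc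
    have hpw := psElt_dvd hpel hne
    have h4 := cg_cs_mul _ _ hcop2 (by rw [hcs1, hcs2]; exact hunl _ hpw)
    rw [h4, hcs1, hcs2]
    exact max_eq_right hlt.le
  let X : Set G := {x | ∃ g, x = g * a * g⁻¹}
  let K : Subgroup G :=
    Subgroup.closure {n : G | ∃ x ∈ X, ∃ g : G, n = x⁻¹ * (g * x * g⁻¹)}
  have hXc : ∀ x ∈ X, ∀ g : G, g * x * g⁻¹ ∈ X := by
    rintro x ⟨u, rfl⟩ g
    exact ⟨g * u, by group⟩
  have hKn : K.Normal := ps_closure_normal _ (by
    rintro n ⟨x, hx, g, rfl⟩ c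
    refine ⟨c * x * c⁻¹, hXc x hx c, c * g * c⁻¹, ?_⟩
    group)
  have hKconj : ∀ n ∈ K, ∀ y, (∃ k, y = k * b * k⁻¹) → ∃ h : G, n * y = h * y * h⁻¹ := by
    intro n hn
    exact cg_closure_conj X (fun y => ∃ k, y = k * b * k⁻¹) hXc
      (by rintro y ⟨k, rfl⟩ g; exact ⟨g * k, by group⟩)
      (fun x hx y hy => hmul x y hx hy) n hn
  have hKprime : ∀ q : ℕ, q.Prime → q ∣ Nat.card K → q ∣ cgCs b := by
    intro q hq hqd
    have : Fact q.Prime := ⟨hq⟩
    obtain ⟨n, hn⟩ := exists_prime_orderOf_dvd_card' q hqd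
    have hn' : orderOf (n : G) = q := by rw [Subgroup.orderOf_coe]; exact hn
    exact cg_prime_dvd_of_free q (n : G) b hn' (fun t ht => hKconj n n.2 t ht)
  have hKcop : Nat.Coprime (Nat.card K) (cgCs a) := by
    by_contra hcon
    obtain ⟨q, hq, hq1, hq2⟩ := Nat.Prime.not_coprime_iff_dvd.mp hcon
    exact hq.one_lt.ne' (Nat.eq_one_of_dvd_coprimes hcop hq2 (hKprime q hq hq1))
  have hKle : K ≤ Subgroup.centralizer ({a} : Set G) := by
    rw [← Subgroup.relIndex_eq_one]
    exact Nat.eq_one_of_dvd_coprimes hKcop (Subgroup.relIndex_dvd_card _ _)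
      (relIndex_dvd_index_of_normal_right _ _)
  have hmemK : ∀ g : G, a⁻¹ * (g * a * g⁻¹) ∈ K := fun g =>
    Subgroup.subset_closure ⟨a, ⟨1, by group⟩, g, rfl⟩
  have haa0 : ∀ g : G, Commute a (g * a * g⁻¹) := by
    intro g
    have h2 : Commute (a⁻¹ * (g * a * g⁻¹)) a := ps_mem_cz.mp (hKle (hmemK g))
    have h3 : Commute (a * (a⁻¹ * (g * a * g⁻¹))) a := (Commute.refl a).mul_left h2
    rw [mul_inv_cancel_left] at h3
    exact h3.symm
  have haa : ∀ g k : G, Commute (g * a * g⁻¹) (k * a * k⁻¹) := by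
    intro g k
    have h := haa0 (g⁻¹ * k)
    show g * a * g⁻¹ * (k * a * k⁻¹) = k * a * k⁻¹ * (g * a * g⁻¹)
    have e1 : g * a * g⁻¹ * (k * a * k⁻¹)
        = g * (a * (g⁻¹ * k * a * (g⁻¹ * k)⁻¹)) * g⁻¹ := by group
    have e2 : k * a * k⁻¹ * (g * a * g⁻¹)
        = g * ((g⁻¹ * k * a * (g⁻¹ * k)⁻¹) * a) * g⁻¹ := by group
    rw [e1, e2, h.eq]
  have hpb' : p ∣ cgCs b := by
    have hK1 : Nat.card K ≠ 1 := by
      intro h1
      have hKbot : K = ⊥ := Subgroup.card_eq_one.mp h1
      apply hca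
      rw [cgCs_eq_one_iff, Subgroup.mem_center_iff]
      intro g
      have h2 := hmemK g
      rw [hKbot, Subgroup.mem_bot] at h2
      have h3 : g * a * g⁻¹ = a := by
        have := congrArg (fun t => a * t) h2
        simpa using this
      calc g * a = g * a * g⁻¹ * g := by group
        _ = a * g := by rw [h3]
    obtain ⟨q, hq, hqd⟩ := Nat.exists_prime_and_dvd hK1
    have : Fact q.Prime := ⟨hq⟩
    obtain ⟨n, hn⟩ := exists_prime_orderOf_dvd_card' q hqd
    have hcl := ps_closure_pelt (S := X) (p := p)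
      (by rintro x ⟨g, rfl⟩; exact psElt_conj ha g)
      (by rintro x ⟨g, rfl⟩ y ⟨k, rfl⟩; exact haa g k)
    have hKX : K ≤ Subgroup.closure X := by
      rw [Subgroup.closure_le]
      rintro n ⟨x, hx, g, rfl⟩
      exact Subgroup.mul_mem _ (Subgroup.inv_mem _ (Subgroup.subset_closure hx))
        (Subgroup.subset_closure (hXc x hx g))
    have hnp : psElt p (n : G) := hcl.2 _ (hKX n.2)
    obtain ⟨j, hj⟩ := psElt_orderOf hnp
    have hqp : q = p := by
      have h1 : q ∣ p ^ j := by rw [← hj, Subgroup.orderOf_coe, hn]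
      exact (Nat.prime_dvd_prime_iff_eq hq hp.out).mp (hq.dvd_of_dvd_pow h1)
    rw [← hqp]
    exact hKprime q hq hqd
  exact ⟨fun h => hp.out.one_lt.ne' (Nat.eq_one_of_dvd_coprimes hcop h hpb'), hpb', haa, hab⟩

end PsCfgSec

end Cfsg.Agent.Helper8
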