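import Cfsg.Agent.Helper8.PSing2

/-!
# Class sizes of `p`-singular elements: the unlinked configuration is impossible (helper8)

`PsCfg p e f` is the configuration produced by `ps_step3`.  This file derives a contradiction
(`PsCfg.false`) and concludes `ps_linked`: if `p ∤ |Z(G)|`, any two nontrivial `p`-elements
`a`, `b` are linked by a `p`-singular element `w` whose class size shares a prime with `|a^G|` and
a prime with `|b^G|`.
-/

set_option autoImplicit false

namespace Cfsg.Agent.Helper8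

open Cfsg.Agent.Helper72
open scoped Pointwise

universe u

section PsCfg3
variable {G : Type u} [Group G] [Finite G]

/-- The configuration reached from an unlinked pair of `p`-elements. -/
structure PsCfg (p : ℕ) (e f : G) : Prop where
  hZ : ¬ p ∣ Nat.card (Subgroup.center G)
  he : psElt p e
  he1 : e ≠ 1
  hf : psElt p f
  hf1 : f ≠ 1
  unl : ∀ w : G, p ∣ orderOf w → Nat.Coprime (cgCs w) (cgCs e) ∨ Nat.Coprime (cgCs w) (cgCs f)
  pe : ¬ p ∣ cgCs e
  pf : p ∣ cgCs f
  ee : ∀ g k : G, Commute (g * e * g⁻¹) (k * e * k⁻¹)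
  ef : ∀ g k : G, Commute (g * e * g⁻¹) (k * f * k⁻¹)

variable {p : ℕ} [hp : Fact p.Prime] {e f : G}

theorem PsCfg.cse_ne (h : PsCfg p e f) : cgCs e ≠ 1 :=
  ps_not_center p h.hZ (psElt_dvd h.he h.he1)

theorem PsCfg.cop (h : PsCfg p e f) : Nat.Coprime (cgCs e) (cgCs f) := by
  rcases h.unl e (psElt_dvd h.he h.he1) with h1 | h1
  · exact absurd ((Nat.coprime_self _).mp h1) h.cse_ne
  · exact h1

theorem PsCfg.A_cl (h : PsCfg p e f) :
    (∀ u ∈ psA e, ∀ v ∈ psA e, Commute u v) ∧ (∀ u ∈ psA e, psElt p u) :=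
  ps_closure_pelt (S := psS e) (p := p)
    (by rintro x ⟨g, rfl⟩; exact psElt_conj h.he g)
    (by rintro x ⟨g, rfl⟩ y ⟨k, rfl⟩; exact h.ee g k)

theorem PsCfg.A_isPGroup (h : PsCfg p e f) : IsPGroup p (psA e) := by
  intro g
  obtain ⟨k, hk⟩ := h.A_cl.2 g.1 g.2
  exact ⟨k, Subtype.ext (by simpa using hk)⟩

theorem PsCfg.e_mem_A (_h : PsCfg p e f) : e ∈ psA e :=
  Subgroup.subset_closure ⟨1, by simp⟩

theorem PsCfg.p_dvd_of_not_mem (h : PsCfg p e f) {x : G} (hx : x ∉ psC e) : p ∣ cgCs x := by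
  have := psA_normal e
  have h1 : (Subgroup.centralizer ({x} : Set G)).relIndex (psA e) ∣ cgCs x :=
    relIndex_dvd_index_of_normal_right _ _
  have h2 : (Subgroup.centralizer ({x} : Set G)).relIndex (psA e) ∣ Nat.card (psA e) :=
    Subgroup.relIndex_dvd_card _ _
  have h3 : (Subgroup.centralizer ({x} : Set G)).relIndex (psA e) ≠ 1 := by
    intro h3
    rw [Subgroup.relIndex_eq_one] at h3
    apply hx
    rw [psC, Subgroup.mem_centralizer_iff]
    intro a ha
    exact (ps_mem_cz.mp (h3 ha)).eq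
  obtain ⟨n, hn⟩ := IsPGroup.iff_card.mp h.A_isPGroup
  rw [hn] at h2
  obtain ⟨i, -, hi⟩ := (Nat.dvd_prime_pow hp.out).mp h2
  rw [hi] at h1 h3
  have hi0 : i ≠ 0 := by
    rintro rfl
    exact h3 (pow_zero p)
  exact (dvd_pow_self p hi0).trans h1

theorem PsCfg.cop_mem_C (h : PsCfg p e f) {x : G} (hx : psElt p x)
    (hc : Nat.Coprime (cgCs x) (cgCs e)) : x ∈ psC e := by
  obtain ⟨g, hg⟩ := ps_exists_conj_commute p h.pe hx
  rw [ps_mem_C_iff]
  intro k
  have hc' : Nat.Coprime (cgCs e) (cgCs (g * x * g⁻¹)) := by rw [cgCs_conj]; exact hc.symm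
  have h1 := ps_comm_conj hc' hg k g⁻¹
  have e1 : g⁻¹ * (g * x * g⁻¹) * g⁻¹⁻¹ = x := by group
  rw [e1] at h1
  exact h1.symm

theorem PsCfg.cop_comm_f (h : PsCfg p e f) {x : G}
    (hc : Nat.Coprime (cgCs x) (cgCs f)) (k : G) : Commute x (k * f * k⁻¹) := by
  have hpx : ¬ p ∣ cgCs x := fun hd =>
    hp.out.one_lt.ne' (Nat.eq_one_of_dvd_coprimes hc hd h.pf)
  obtain ⟨g, hg⟩ := ps_exists_conj_commute p hpx h.hf
  have hc' : Nat.Coprime (cgCs x) (cgCs (g * f * g⁻¹)) := by rw [cgCs_conj]; exact hc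
  have h1 := ps_comm_conj hc' hg 1 (k * g⁻¹)
  have e1 : k * g⁻¹ * (g * f * g⁻¹) * (k * g⁻¹)⁻¹ = k * f * k⁻¹ := by group
  have e2 : (1 : G) * x * 1⁻¹ = x := by group
  rw [e1, e2] at h1
  exact h1

/-- Every `p`-element centralizes the normal closure of `e`. -/
theorem PsCfg.pelt_mem_C (h : PsCfg p e f) {x : G} (hx : psElt p x) : x ∈ psC e := by
  obtain ⟨P, hP⟩ := (psElt_isPGroup hx).exists_le_sylow
  have hxP : x ∈ (P : Subgroup G) := hP (Subgroup.mem_zpowers x)
  let CB : Subgroup G := Subgroup.centralizer {y | ∃ k : G, y = k * f * k⁻¹}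
  have hdich : ∀ y ∈ (P : Subgroup G), y ∈ psC e ∨ y ∈ CB := by
    intro y hy
    have hyp : psElt p y := by
      obtain ⟨k, hk⟩ := P.2 ⟨y, hy⟩
      exact ⟨k, by simpa using congrArg Subtype.val hk⟩
    by_cases hy1 : y = 1
    · left; rw [hy1]; exact Subgroup.one_mem _
    · rcases h.unl y (psElt_dvd hyp hy1) with hc | hc
      · left; exact h.cop_mem_C hyp hc
      · right
        rw [Subgroup.mem_centralizer_iff]
        rintro z ⟨k, rfl⟩
        exact (h.cop_comm_f hc k).symm.eq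
  have hor : (P : Subgroup G) ≤ psC e ∨ (P : Subgroup G) ≤ CB := by
    by_contra hcon
    push Not at hcon
    obtain ⟨h1, h2⟩ := hcon
    obtain ⟨u, hu, hu'⟩ := SetLike.not_le_iff_exists.mp h1
    obtain ⟨v, hv, hv'⟩ := SetLike.not_le_iff_exists.mp h2
    have huB : u ∈ CB := (hdich u hu).resolve_left hu'
    have hvC : v ∈ psC e := (hdich v hv).resolve_right hv'
    rcases hdich (u * v) (Subgroup.mul_mem _ hu hv) with h3 | h3
    · exact hu' ((Subgroup.mul_mem_cancel_right _ hvC).mp h3)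
    · exact hv' ((Subgroup.mul_mem_cancel_left _ huB).mp h3)
  rcases hor with h1 | h1
  · exact h1 hxP
  · exfalso
    obtain ⟨g, h2⟩ := ps_conj_mem_sylow P h.hf
    have h4 : (P : Subgroup G) ≤ Subgroup.centralizer ({g * f * g⁻¹} : Set G) := by
      intro y hy
      have h5 := h1 hy
      rw [Subgroup.mem_centralizer_iff] at h5
      rw [ps_mem_cz]
      exact (h5 _ ⟨g, rfl⟩).symm
    have h6 : ¬ p ∣ cgCs (g * f * g⁻¹) := fun hd =>
      P.not_dvd_index (hd.trans (Subgroup.index_dvd_of_le h4))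
    rw [cgCs_conj] at h6
    exact h6 h.pf

/-- `C_G(e)` is the centralizer of the normal closure of `e`. -/
theorem PsCfg.cent_e (h : PsCfg p e f) : Subgroup.centralizer ({e} : Set G) = psC e := by
  apply le_antisymm
  · intro g hg
    obtain ⟨u, v, hu, hv, hup, hvo, huv⟩ := ps_decomp p g
    have huC : u ∈ psC e := h.pelt_mem_C hup
    have hvC : v ∈ psC e := by
      by_contra hvC
      have hpv := h.p_dvd_of_not_mem hvC
      have hve : Commute v e := by
        have h1 : Subgroup.zpowers g ≤ Subgroup.centralizer ({e} : Set G) :=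
          (Subgroup.zpowers_le).mpr hg
        exact ps_mem_cz.mp (h1 hv)
      obtain ⟨j, hj⟩ := psElt_orderOf h.he
      have hcop : Nat.Coprime (orderOf e) (orderOf v) := by
        rw [hj]; exact (Nat.Coprime.pow_right j hvo).symm
      have hd1 := ps_cs_dvd_mul_left hve.symm hcop
      have hd2 := ps_cs_dvd_mul_right hve.symm hcop
      have hpw : p ∣ orderOf (e * v) := by
        rw [hve.symm.orderOf_mul_eq_mul_orderOf_of_coprime hcop]
        exact (psElt_dvd h.he h.he1).mul_right _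
      rcases h.unl (e * v) hpw with hc | hc
      · exact h.cse_ne (Nat.Coprime.eq_one_of_dvd hc.symm hd1)
      · exact hp.out.one_lt.ne' (Nat.eq_one_of_dvd_coprimes hc (hpv.trans hd2) h.pf)
    rw [huv]
    exact Subgroup.mul_mem _ huC hvC
  · intro g hg
    rw [ps_mem_cz]
    have h1 := (ps_mem_C_iff.mp hg) 1
    simpa using h1

theorem PsCfg.index_C (h : PsCfg p e f) : (psC e).index = cgCs e := by
  rw [← h.cent_e]; rfl

/-- Elements of class size prime to `|G : C|` are centralized modulo `C` by everything. -/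
theorem PsCfg.cover (h : PsCfg p e f) {z : G} (hz : Nat.Coprime (cgCs z) (cgCs e)) (g : G) :
    ∃ c ∈ psC e, c⁻¹ * g ∈ Subgroup.centralizer ({z} : Set G) :=
  Helper69.exists_mem_mul_of_coprime_index (Subgroup.centralizer ({z} : Set G)) (psC e)
    (by rw [h.index_C]; exact hz) g

/-- A `p`-element commuting with a `p'`-element outside `C` has class size prime to `|G : C|`. -/
theorem PsCfg.sfree (h : PsCfg p e f) {x c : G} (hx : x ∉ psC e)
    (hxo : Nat.Coprime (orderOf x) p) (hc : psElt p c) (hc1 : c ≠ 1) (hcomm : Commute c x) :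
    Nat.Coprime (cgCs c) (cgCs e) := by
  obtain ⟨j, hj⟩ := psElt_orderOf hc
  have hcop : Nat.Coprime (orderOf c) (orderOf x) := by
    rw [hj]; exact (Nat.Coprime.pow_right j hxo).symm
  have hd1 := ps_cs_dvd_mul_left hcomm hcop
  have hd2 := ps_cs_dvd_mul_right hcomm hcop
  have hpw : p ∣ orderOf (c * x) := by
    rw [hcomm.orderOf_mul_eq_mul_orderOf_of_coprime hcop]
    exact (psElt_dvd hc hc1).mul_right _
  rcases h.unl (c * x) hpw with h1 | h1
  · exact Nat.Coprime.coprime_dvd_left hd1 h1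
  · exact absurd (Nat.eq_one_of_dvd_coprimes h1 ((h.p_dvd_of_not_mem hx).trans hd2) h.pf)
      hp.out.one_lt.ne'

theorem PsCfg.not_dvd_relIndex (h : PsCfg p e f) {y : G} (hy : y ∈ psC e)
    (hyo : Nat.Coprime (orderOf y) p) :
    ¬ p ∣ (Subgroup.centralizer ({y} : Set G)).relIndex (psC e) := by
  intro hd
  have hey : Commute e y := by
    have h1 := (ps_mem_C_iff.mp hy) 1
    have h2 : Commute y e := by simpa using h1
    exact h2.symm
  obtain ⟨j, hj⟩ := psElt_orderOf h.he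
  have hcop : Nat.Coprime (orderOf e) (orderOf y) := by
    rw [hj]; exact (Nat.Coprime.pow_right j hyo).symm
  have hd1 := ps_cs_dvd_mul_left hey hcop
  have hpw : p ∣ orderOf (e * y) := by
    rw [hey.orderOf_mul_eq_mul_orderOf_of_coprime hcop]
    exact (psElt_dvd h.he h.he1).mul_right _
  have hcs : cgCs (e * y)
      = (Subgroup.centralizer ({y} : Set G)).relIndex (psC e) * (psC e).index := by
    unfold cgCs
    rw [ps_cent_mul hey hcop, h.cent_e,
      ← Subgroup.relIndex_mul_index (inf_le_left : psC e ⊓ _ ≤ psC e),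
      Subgroup.inf_relIndex_left]
  rcases h.unl (e * y) hpw with h1 | h1
  · exact h.cse_ne (Nat.Coprime.eq_one_of_dvd h1.symm hd1)
  · exact hp.out.one_lt.ne'
      (Nat.eq_one_of_dvd_coprimes h1 (by rw [hcs]; exact hd.mul_right _) h.pf)

theorem PsCfg.cs_sub (h : PsCfg p e f) (y : ↥(psC e)) (hyo : Nat.Coprime (orderOf y) p) :
    ¬ p ∣ cgCs y := by
  have h1 : cgCs y = (Subgroup.centralizer ({(y : G)} : Set G)).relIndex (psC e) := by
    unfold cgCs Subgroup.relIndex
    congr 1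
    ext c
    simp [Subgroup.mem_subgroupOf, Subgroup.mem_centralizer_singleton_iff, Subtype.ext_iff]
  rw [h1]
  exact h.not_dvd_relIndex y.2 (by rwa [Subgroup.orderOf_coe])

theorem PsCfg.mem_syl (h : PsCfg p e f) {x : G} (hx : psElt p x) (P : Sylow p ↥(psC e)) :
    (⟨x, h.pelt_mem_C hx⟩ : ↥(psC e)) ∈ (P : Subgroup ↥(psC e)) := by
  apply ps_mem_sylow_of_central p (fun y hyo => h.cs_sub y hyo)
  obtain ⟨k, hk⟩ := hx
  exact ⟨k, Subtype.ext (by simpa using hk)⟩

/-- The `p`-elements are closed under multiplication. -/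
theorem PsCfg.pelt_mul (h : PsCfg p e f) {x y : G} (hx : psElt p x) (hy : psElt p y) :
    psElt p (x * y) := by
  obtain ⟨P⟩ : Nonempty (Sylow p ↥(psC e)) := inferInstance
  have h3 := Subgroup.mul_mem _ (h.mem_syl hx P) (h.mem_syl hy P)
  obtain ⟨k, hk⟩ := P.2 ⟨_, h3⟩
  refine ⟨k, ?_⟩
  have h4 := congrArg (fun w : ↥(P : Subgroup ↥(psC e)) => ((w : ↥(psC e)) : G)) hk
  simpa using h4

/-- `p'`-elements of `C` commute with all `p`-elements. -/
theorem PsCfg.comm_p' (h : PsCfg p e f) {x y : G} (hx : psElt p x) (hy : y ∈ psC e)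
    (hyo : Nat.Coprime (orderOf y) p) : Commute x y := by
  have h0 : ¬ p ∣ cgCs (⟨y, hy⟩ : ↥(psC e)) :=
    h.cs_sub ⟨y, hy⟩ (by rwa [Subgroup.orderOf_mk])
  obtain ⟨Q, hQ⟩ := cg_exists_sylow_le p _ h0
  have h1 := hQ (h.mem_syl hx Q)
  rw [ps_mem_cz] at h1
  have h2 := congrArg Subtype.val h1.eq
  exact h2

/-- The subgroup of all `p`-elements. -/
def PsCfg.P (h : PsCfg p e f) : Subgroup G where
  carrier := {x | psElt p x}
  mul_mem' := fun hx hy => h.pelt_mul hx hy
  one_mem' := psElt_one p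
  inv_mem' := fun hx => psElt_inv hx

theorem PsCfg.P_normal (h : PsCfg p e f) : h.P.Normal :=
  ⟨fun _ hx g => psElt_conj hx g⟩

theorem PsCfg.P_isPGroup (h : PsCfg p e f) : IsPGroup p h.P := by
  intro g
  obtain ⟨k, hk⟩ := g.2
  exact ⟨k, Subtype.ext (by simpa using hk)⟩

theorem PsCfg.P_le_cz (h : PsCfg p e f) {x : G} (hx : ¬ p ∣ cgCs x) :
    h.P ≤ Subgroup.centralizer ({x} : Set G) := by
  have := h.P_normal
  rw [← Subgroup.relIndex_eq_one]
  have h1 : (Subgroup.centralizer ({x} : Set G)).relIndex h.P ∣ cgCs x :=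
    relIndex_dvd_index_of_normal_right _ _
  have h2 := Subgroup.relIndex_dvd_card (Subgroup.centralizer ({x} : Set G)) h.P
  obtain ⟨n, hn⟩ := IsPGroup.iff_card.mp h.P_isPGroup
  rw [hn] at h2
  obtain ⟨i, -, hi⟩ := (Nat.dvd_prime_pow hp.out).mp h2
  rcases Nat.eq_zero_or_pos i with h0 | h0
  · rw [hi, h0, pow_zero]
  · exfalso
    apply hx
    rw [hi] at h1
    exact (dvd_pow_self p h0.ne').trans h1

theorem PsCfg.not_dvd_of_P_le (h : PsCfg p e f) {x : G}
    (hle : h.P ≤ Subgroup.centralizer ({x} : Set G)) : ¬ p ∣ cgCs x := by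
  obtain ⟨Q⟩ : Nonempty (Sylow p G) := inferInstance
  have hQ : (Q : Subgroup G) ≤ h.P := by
    intro y hy
    obtain ⟨k, hk⟩ := Q.2 ⟨y, hy⟩
    exact ⟨k, by simpa using congrArg Subtype.val hk⟩
  exact fun hd => Q.not_dvd_index (hd.trans (Subgroup.index_dvd_of_le (hQ.trans hle)))

end PsCfg3

end Cfsg.Agent.Helper8
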