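import Cfsg.Agent.Helper8.PSing3

/-!
# Class sizes of `p`-singular elements: linking theorem (helper8)

`PsCfg.false` : the configuration `PsCfg p e f` is contradictory.
`ps_linked` : if `p ∤ |Z(G)|`, for any two nontrivial `p`-elements `a`, `b` there is a
`p`-singular element `w` whose class size is coprime neither to `|a^G|` nor to `|b^G|`.
-/

set_option autoImplicit false

namespace Cfsg.Agent.Helper8

open Cfsg.Agent.Helper72
open scoped Pointwise

universe u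

section PsCfg4
variable {G : Type u} [Group G] [Finite G]

/-- An element of `D` outside `C` has a power of prime power order in `D` outside `C`. -/
theorem ps_exists_prime_pow_not_mem (C D : Subgroup G) :
    ∀ (n : ℕ) (g : G), orderOf g = n → g ∈ D → g ∉ C →
      ∃ q : ℕ, q.Prime ∧ ∃ h₀ ∈ D, psElt q h₀ ∧ h₀ ∉ C := by
  intro n
  induction n using Nat.strong_induction_on with
  | _ n ih =>
    intro g hgn hgD hgC
    have hg1 : g ≠ 1 := by
      rintro rfl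
      exact hgC (Subgroup.one_mem _)
    have hn1 : n ≠ 1 := by
      rw [← hgn]
      exact fun h => hg1 (orderOf_eq_one_iff.mp h)
    have hn0 : n ≠ 0 := by
      rw [← hgn]
      exact (orderOf_pos g).ne'
    obtain ⟨q, hq, hqn⟩ : ∃ q : ℕ, q.Prime ∧ q ∣ n :=
      ⟨n.minFac, Nat.minFac_prime hn1, Nat.minFac_dvd n⟩
    obtain ⟨k, m, hm, hkm⟩ := Nat.exists_eq_pow_mul_and_not_dvd hn0 q hq.ne_one
    have hcop : Nat.Coprime (q ^ k) m :=
      Nat.Coprime.pow_left k ((Nat.Prime.coprime_iff_not_dvd hq).mpr hm)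
    by_cases h1 : g ^ (q ^ k) ∈ C
    · have h2 : g ^ m ∉ C := fun h2 => hgC (Helper67.mem_of_coprime_pow_mem C g hcop h1 h2)
      refine ⟨q, hq, g ^ m, Subgroup.pow_mem _ hgD _, ⟨k, ?_⟩, h2⟩
      rw [← pow_mul, mul_comm, ← hkm, ← hgn, pow_orderOf_eq_one]
    · have hk0 : k ≠ 0 := by
        rintro rfl
        rw [pow_zero, one_mul] at hkm
        exact hm (hkm ▸ hqn)
      have hm0 : m ≠ 0 := by
        rintro rfl
        rw [mul_zero] at hkm
        exact hn0 hkm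
      have ho : orderOf (g ^ (q ^ k)) = m := by
        rw [orderOf_pow, hgn]
        have h3 : n.gcd (q ^ k) = q ^ k := Nat.gcd_eq_right (hkm ▸ Dvd.intro _ rfl)
        rw [h3]
        conv_lhs => rw [hkm]
        exact Nat.mul_div_cancel_left m (pow_pos hq.pos k)
      have h2 : 2 ≤ q ^ k := by
        calc 2 ≤ q := hq.two_le
          _ ≤ q ^ k := Nat.le_self_pow hk0 _
      have hlt : m < n := by
        rw [hkm]
        nlinarith [Nat.pos_of_ne_zero hm0]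
      exact ih m hlt (g ^ (q ^ k)) ho (Subgroup.pow_mem _ hgD _) h1

variable {p : ℕ} [hp : Fact p.Prime] {e f : G}

/-- The configuration of an unlinked pair is contradictory. -/
theorem PsCfg.false (h : PsCfg p e f) : False := by
  classical
  -- noncentral elements of `P` have class size prime to `|G : C|`
  have hfree : ∀ x ∈ h.P, (∃ u ∈ h.P, ¬ Commute x u) → Nat.Coprime (cgCs x) (cgCs e) := by
    rintro x hx ⟨u, hu, hxu⟩
    have hpx : p ∣ cgCs x := by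
      by_contra hpx
      exact hxu (ps_mem_cz.mp (h.P_le_cz hpx hu)).symm
    have hx1 : x ≠ 1 := by
      rintro rfl
      exact hxu (Commute.one_left u)
    rcases h.unl x (psElt_dvd hx hx1) with h1 | h1
    · exact h1
    · exact absurd (Nat.eq_one_of_dvd_coprimes h1 hpx h.pf) hp.out.one_lt.ne'
  have hfP : f ∈ h.P := h.hf
  -- a `q`-element `h₀` outside `C` commuting with `f`
  obtain ⟨q, hq, h₀, hh₀f, hh₀q, hh₀C⟩ : ∃ q : ℕ, q.Prime ∧
      ∃ h₀ ∈ Subgroup.centralizer ({f} : Set G), psElt q h₀ ∧ h₀ ∉ psC e := by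
    have hCtop : psC e ≠ ⊤ := by
      intro htop
      apply h.cse_ne
      rw [← h.index_C, htop, Subgroup.index_top]
    obtain ⟨g₁, hg₁⟩ : ∃ g₁ : G, g₁ ∉ psC e := by
      by_contra hcon
      push Not at hcon
      exact hCtop ((Subgroup.eq_top_iff' _).mpr hcon)
    obtain ⟨c, hcC, hc⟩ := h.cover h.cop.symm g₁
    have hnot : c⁻¹ * g₁ ∉ psC e := by
      intro h1
      apply hg₁
      have h2 := Subgroup.mul_mem _ hcC h1
      rwa [mul_inv_cancel_left] at h2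
    exact ps_exists_prime_pow_not_mem (psC e) _ _ (c⁻¹ * g₁) rfl hc hnot
  have : Fact q.Prime := ⟨hq⟩
  have hqp : q ≠ p := by
    rintro rfl
    exact hh₀C (h.pelt_mem_C hh₀q)
  have hh₀o : Nat.Coprime (orderOf h₀) p := by
    obtain ⟨j, hj⟩ := psElt_orderOf hh₀q
    rw [hj]
    exact Nat.Coprime.pow_left j ((Nat.coprime_primes hq hp.out).mpr hqp)
  have hPn := h.P_normal
  -- every noncentral element of `P` is `P`-conjugate into `C(h₀)`
  have hconj : ∀ x ∈ h.P, (∃ u ∈ h.P, ¬ Commute x u) →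
      ∃ u ∈ h.P, Commute h₀ (u * x * u⁻¹) := by
    intro x hx hnc
    have hcx := hfree x hx hnc
    obtain ⟨c, hcC, hc⟩ := h.cover hcx h₀
    rw [ps_mem_cz] at hc
    obtain ⟨u₀, hu₀, hu₀x⟩ : ∃ u₀ ∈ h.P, h₀ * x * h₀⁻¹ = u₀ * x * u₀⁻¹ := by
      obtain ⟨u, v, hu, hv, hup, hvo, huv⟩ := ps_decomp p c
      have hvC : v ∈ psC e := (Subgroup.zpowers_le.mpr hcC) hv
      have hvx : Commute x v := h.comm_p' hx hvC hvo
      refine ⟨u, hup, ?_⟩
      have h1 : h₀ * x * h₀⁻¹ = c * x * c⁻¹ := by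
        have h2 : c⁻¹ * h₀ * x = x * (c⁻¹ * h₀) := hc.eq
        calc h₀ * x * h₀⁻¹ = c * (c⁻¹ * h₀ * x) * h₀⁻¹ := by group
          _ = c * (x * (c⁻¹ * h₀)) * h₀⁻¹ := by rw [h2]
          _ = c * x * c⁻¹ := by group
      rw [h1, huv]
      have h3 : v * x = x * v := hvx.symm.eq
      calc u * v * x * (u * v)⁻¹ = u * (v * x) * v⁻¹ * u⁻¹ := by group
        _ = u * (x * v) * v⁻¹ * u⁻¹ := by rw [h3]
        _ = u * x * u⁻¹ := by group
    -- the `P`-class of `x`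
    let Ω := {y : G // ∃ u ∈ h.P, y = u * x * u⁻¹}
    have : Fintype Ω := Fintype.ofFinite Ω
    -- its cardinality is a power of `p`
    obtain ⟨n, hn⟩ : ∃ n : ℕ, Nat.card Ω = p ^ n := by
      let act : MulAction ↥h.P G :=
        MulAction.compHom G ((ConjAct.toConjAct (G := G)).toMonoidHom.comp h.P.subtype)
      have hsm : ∀ (u : ↥h.P) (y : G), u • y = (u : G) * y * (u : G)⁻¹ := fun u y => rfl
      obtain ⟨n, hn⟩ := h.P_isPGroup.card_orbit x
      refine ⟨n, ?_⟩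
      rw [← hn]
      apply Nat.card_congr
      refine Equiv.subtypeEquivRight ?_
      intro y
      rw [MulAction.mem_orbit_iff]
      constructor
      · rintro ⟨u, hu, rfl⟩
        exact ⟨⟨u, hu⟩, hsm _ _⟩
      · rintro ⟨u, rfl⟩
        exact ⟨u.1, u.2, hsm _ _⟩
    let φ : Function.End Ω := fun y => ⟨h₀ * y.1 * h₀⁻¹, by
      obtain ⟨u, hu, hy⟩ := y.2
      refine ⟨h₀ * u * h₀⁻¹ * u₀, Subgroup.mul_mem _ (hPn.conj_mem u hu h₀) hu₀, ?_⟩
      rw [hy]
      calc h₀ * (u * x * u⁻¹) * h₀⁻¹ = h₀ * u * h₀⁻¹ * (h₀ * x * h₀⁻¹) * (h₀ * u * h₀⁻¹)⁻¹ := by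
            group
        _ = h₀ * u * h₀⁻¹ * (u₀ * x * u₀⁻¹) * (h₀ * u * h₀⁻¹)⁻¹ := by rw [hu₀x]
        _ = h₀ * u * h₀⁻¹ * u₀ * x * (h₀ * u * h₀⁻¹ * u₀)⁻¹ := by group⟩
    have hφ : ∀ k : ℕ, ∀ y : Ω, ((φ ^ k) y).1 = h₀ ^ k * y.1 * (h₀ ^ k)⁻¹ := by
      intro k
      induction k with
      | zero => intro y; rw [pow_zero, pow_zero, one_mul, inv_one, mul_one]; rfl
      | succ k ih =>
        intro y
        rw [pow_succ', pow_succ']
        show ((φ ((φ ^ k) y)) : Ω).1 = _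
        show h₀ * ((φ ^ k) y).1 * h₀⁻¹ = _
        rw [ih y]
        group
    obtain ⟨j, hj⟩ := hh₀q
    have hφq : φ ^ q ^ j = 1 := by
      funext y
      apply Subtype.ext
      rw [hφ (q ^ j) y, hj, one_mul, inv_one, mul_one]
      rfl
    have hmod := Equiv.Perm.card_fixedPoints_modEq (p := q) (n := j) hφq
    have hfix : Fintype.card (Function.fixedPoints φ) ≠ 0 := by
      intro h0
      rw [h0, ← Nat.card_eq_fintype_card, hn] at hmod
      have h1 : q ∣ p ^ n := (Nat.modEq_zero_iff_dvd).mp hmod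
      exact hqp ((Nat.prime_dvd_prime_iff_eq hq hp.out).mp (hq.dvd_of_dvd_pow h1))
    obtain ⟨⟨y, hy⟩⟩ := Fintype.card_pos_iff.mp (Nat.pos_of_ne_zero hfix)
    obtain ⟨u, hu, hyu⟩ := y.2
    refine ⟨u, hu, ?_⟩
    have h1 : h₀ * y.1 * h₀⁻¹ = y.1 := congrArg Subtype.val hy
    rw [← hyu]
    show h₀ * y.1 = y.1 * h₀
    calc h₀ * y.1 = h₀ * y.1 * h₀⁻¹ * h₀ := by group
      _ = y.1 * h₀ := by rw [h1]
  -- the subgroup `M = C_P(h₀) Z(P)`
  let M : Subgroup G :=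
    { carrier := {g | g ∈ h.P ∧ ∃ z ∈ h.P, (∀ u ∈ h.P, Commute z u) ∧ Commute h₀ (g * z)}
      mul_mem' := by
        rintro g₁ g₂ ⟨hg₁, z₁, hz₁, hz₁c, hc₁⟩ ⟨hg₂, z₂, hz₂, hz₂c, hc₂⟩
        refine ⟨Subgroup.mul_mem _ hg₁ hg₂, z₁ * z₂, Subgroup.mul_mem _ hz₁ hz₂,
          fun u hu => (hz₁c u hu).mul_left (hz₂c u hu), ?_⟩
        have h1 : g₁ * g₂ * (z₁ * z₂) = g₁ * z₁ * (g₂ * z₂) := by
          have h2 : z₁ * g₂ = g₂ * z₁ := (hz₁c g₂ hg₂).eq
          calc g₁ * g₂ * (z₁ * z₂) = g₁ * (g₂ * z₁) * z₂ := by group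
            _ = g₁ * (z₁ * g₂) * z₂ := by rw [h2]
            _ = g₁ * z₁ * (g₂ * z₂) := by group
        rw [h1]
        exact hc₁.mul_right hc₂
      one_mem' := ⟨Subgroup.one_mem _, 1, Subgroup.one_mem _, fun u _ => Commute.one_left u, by
        rw [mul_one]; exact Commute.one_right h₀⟩
      inv_mem' := by
        rintro g ⟨hg, z, hz, hzc, hc⟩
        refine ⟨Subgroup.inv_mem _ hg, z⁻¹, Subgroup.inv_mem _ hz,
          fun u hu => (hzc u hu).inv_left, ?_⟩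
        have h1 : g⁻¹ * z⁻¹ = (g * z)⁻¹ := by
          have h2 : z * g = g * z := (hzc g hg).eq
          rw [← h2]; group
        rw [h1]
        exact hc.inv_right }
  have hMtop : ∀ g ∈ h.P, g ∈ M := by
    by_contra hcon
    push Not at hcon
    obtain ⟨g₂, hg₂P, hg₂M⟩ := hcon
    have hne : M.subgroupOf h.P ≠ ⊤ := by
      intro htop
      have h1 : (⟨g₂, hg₂P⟩ : ↥h.P) ∈ M.subgroupOf h.P := by rw [htop]; exact Subgroup.mem_top _
      exact hg₂M (Subgroup.mem_subgroupOf.mp h1)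
    obtain ⟨g, hg⟩ := Helper73.exists_not_mem_conj (M.subgroupOf h.P) hne
    by_cases hgc : ∃ u ∈ h.P, ¬ Commute (g : G) u
    · obtain ⟨u, hu, hcu⟩ := hconj g.1 g.2 hgc
      apply hg (⟨u, hu⟩⁻¹ : ↥h.P)
      rw [Helper67.mem_conj_smul_iff, Subgroup.mem_subgroupOf]
      refine ⟨(((⟨u, hu⟩⁻¹ : ↥h.P))⁻¹ * g * (⟨u, hu⟩⁻¹ : ↥h.P)).2, 1, Subgroup.one_mem _,
        fun u _ => Commute.one_left u, ?_⟩
      simpa using hcu
    · push Not at hgc
      apply hg (1 : ↥h.P)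
      rw [Helper67.mem_conj_smul_iff, Subgroup.mem_subgroupOf]
      refine ⟨(((1 : ↥h.P))⁻¹ * g * 1).2, (g : G)⁻¹, Subgroup.inv_mem _ g.2,
        fun u hu => (hgc u hu).inv_left, ?_⟩
      simp
  -- a nontrivial central element of `C_P(h₀)`
  let D : Subgroup G := Subgroup.centralizer ({h₀} : Set G) ⊓ h.P
  have hfD : f ∈ D := ⟨ps_mem_cz.mpr (ps_mem_cz.mp hh₀f).symm, hfP⟩
  have hDp : IsPGroup p D := h.P_isPGroup.to_le inf_le_right
  have hDnt : Nontrivial ↥D := ⟨⟨⟨f, hfD⟩, 1, fun h1 => h.hf1 (congrArg Subtype.val h1)⟩⟩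
  have hcent := hDp.center_nontrivial
  obtain ⟨z₀, hz₀⟩ := exists_ne (1 : ↥(Subgroup.center ↥D))
  have hz₀c : ∀ d : ↥D, d * z₀.1 = z₀.1 * d := fun d => (Subgroup.mem_center_iff.mp z₀.2 d)
  have hzD : ((z₀ : ↥D) : G) ∈ D := z₀.1.2
  have hz1 : ((z₀ : ↥D) : G) ≠ 1 := by
    intro h1
    apply hz₀
    apply Subtype.ext
    apply Subtype.ext
    exact h1
  have hzD' : ∀ d ∈ D, Commute d ((z₀ : ↥D) : G) := by
    intro d hd
    have h1 := hz₀c ⟨d, hd⟩
    exact congrArg Subtype.val h1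
  have hzP : ((z₀ : ↥D) : G) ∈ h.P := hzD.2
  have hzh : Commute ((z₀ : ↥D) : G) h₀ := ps_mem_cz.mp hzD.1
  -- it is central in `P`
  have hzcent : ∀ g ∈ h.P, Commute g ((z₀ : ↥D) : G) := by
    intro g hg
    obtain ⟨-, z₁, hz₁, hz₁c, hc⟩ := hMtop g hg
    have h1 : g * z₁ ∈ D := ⟨ps_mem_cz.mpr hc.symm, Subgroup.mul_mem _ hg hz₁⟩
    have h2 : Commute (g * z₁) ((z₀ : ↥D) : G) := hzD' _ h1
    have h3 : Commute z₁⁻¹ ((z₀ : ↥D) : G) := (hz₁c _ hzP).inv_left
    have h4 := h2.mul_left h3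
    rwa [mul_inv_cancel_right] at h4
  -- hence central in `G`
  have hzcop : Nat.Coprime (cgCs ((z₀ : ↥D) : G)) (cgCs e) := h.sfree hh₀C hh₀o hzP hz1 hzh
  have hzG : ∀ g : G, Commute g ((z₀ : ↥D) : G) := by
    intro g
    obtain ⟨c, hcC, hc⟩ := h.cover hzcop g
    rw [ps_mem_cz] at hc
    obtain ⟨u, v, hu, hv, hup, hvo, huv⟩ := ps_decomp p c
    have hvC : v ∈ psC e := (Subgroup.zpowers_le.mpr hcC) hv
    have h1 : Commute c ((z₀ : ↥D) : G) := by
      rw [huv]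
      exact (hzcent u hup).mul_left (h.comm_p' hzP hvC hvo).symm
    have h2 := h1.mul_left hc
    rwa [mul_inv_cancel_left] at h2
  have hzZ : cgCs ((z₀ : ↥D) : G) = 1 := by
    rw [cgCs_eq_one_iff, Subgroup.mem_center_iff]
    intro g
    exact (hzG g).eq
  exact ps_not_center p h.hZ (psElt_dvd hzP hz1) hzZ

/-- Linking theorem: if `p ∤ |Z(G)|`, any two nontrivial `p`-elements are linked by a `p`-singular
element whose class size has a common prime with each of their class sizes. -/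
theorem ps_linked (p : ℕ) [hp : Fact p.Prime] (hZ : ¬ p ∣ Nat.card (Subgroup.center G))
    {a b : G} (ha : psElt p a) (ha1 : a ≠ 1) (hb : psElt p b) (hb1 : b ≠ 1) :
    ∃ w : G, p ∣ orderOf w ∧ ¬ Nat.Coprime (cgCs w) (cgCs a) ∧
      ¬ Nat.Coprime (cgCs w) (cgCs b) := by
  by_contra hcon
  push Not at hcon
  have hunl : ∀ w : G, p ∣ orderOf w →
      Nat.Coprime (cgCs w) (cgCs a) ∨ Nat.Coprime (cgCs w) (cgCs b) := by
    intro w hw
    by_cases h1 : Nat.Coprime (cgCs w) (cgCs a)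
    · exact Or.inl h1
    · exact Or.inr (hcon w hw h1)
  have hpa := psElt_dvd ha ha1
  have hne : cgCs a ≠ cgCs b := by
    intro heq
    rcases hunl a hpa with h | h
    · exact ps_not_center p hZ hpa ((Nat.coprime_self _).mp h)
    · rw [← heq] at h
      exact ps_not_center p hZ hpa ((Nat.coprime_self _).mp h)
  rcases lt_or_gt_of_ne hne with hlt | hlt
  · obtain ⟨h1, h2, h3, h4⟩ := ps_step3 p hZ ha ha1 hb hunl hlt
    exact PsCfg.false (⟨hZ, ha, ha1, hb, hb1, hunl, h1, h2, h3, h4⟩ : PsCfg p a b)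
  · obtain ⟨h1, h2, h3, h4⟩ := ps_step3 p hZ hb hb1 ha (fun w hw => (hunl w hw).symm) hlt
    exact PsCfg.false
      (⟨hZ, hb, hb1, ha, ha1, fun w hw => (hunl w hw).symm, h1, h2, h3, h4⟩ : PsCfg p b a)

end PsCfg4

end Cfsg.Agent.Helper8
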