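import Mathlib
import Cfsg.Agent.Helper8.S4504Defs
import Cfsg.Agent.Helper10.S4504D2
import Cfsg.Agent.Helper14.S4504BOUND
import Cfsg.Agent.Helper15.S4504Struct
import Cfsg.Agent.Helper27.S4504COUNT
import Cfsg.Agent.Helper27.S4504GAUSS
import Cfsg.Agent.Helper27.S4504NORM2
import Cfsg.Agent.Helper27.S4504SYL
import Cfsg.Agent.Helper39.S4504IDENT
import Cfsg.Agent.Helper4.S4504SING
import Cfsg.Agent.Helper74.S4504CEN
import Cfsg.Agent.Helper74.S4504MOMENT

/-!
# S4504 (Brauer 1942), assembly of the perfect-group stage (helper8)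

`H` with `S4504Hyp p x χ` (the normal closure of a Sylow `p`-subgroup, with the faithful
irreducible character of degree `(p - 1) / 2`):  `H / Z(H) ≅ PSL(2, p)`, `H` has `p + 1` Sylow
`p`-subgroups, and the powers `x ^ b` with `χ (x ^ b) = χ x` are conjugate to `x`.
Pieces of CALL S4504: D2, STRUCT, SYL, MOMENT, NORM2, CEN, BOUND, SING, GAUSS, COUNT, IDENT.
-/

set_option autoImplicit false
open Cfsg Cfsg.Agent.Helper8
open scoped ComplexConjugate

universe u

namespace Cfsg.Agent.Helper8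

theorem s4504_main {H : Type u} [Group H] [Finite H] (p : ℕ) [Fact p.Prime] (x : H)
    (χ : H → ℂ) (h : S4504Hyp p x χ) :
    Nonempty ((H ⧸ Subgroup.center H) ≃*
      Matrix.ProjectiveSpecialLinearGroup (Fin 2) (ZMod p)) ∧
    Nat.card (Sylow p H) = p + 1 ∧
    (∀ b : ℕ, ¬ p ∣ b → χ (x ^ b) = χ x → ∃ n : H, n * x * n⁻¹ = x ^ b) := by
  classical
  haveI : Fintype H := Fintype.ofFinite H
  obtain ⟨d, hd⟩ : ∃ d : ℕ, Cfsg.charDegree χ = d := ⟨_, rfl⟩
  have hd2 : 2 ≤ d := by rw [← hd]; exact Cfsg.Agent.Helper10.s4504_two_le p x χ h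
  have hp : p = 2 * d + 1 := by rw [← hd]; exact h.hdeg.symm
  obtain ⟨T⟩ := Cfsg.Agent.Helper15.s4504_struct p x χ h d hd
  obtain ⟨hcardS, hsylup, hcp⟩ := Cfsg.Agent.Helper27.s4504_sylow p x h.grp
  have hcard : Nat.card H = Nat.card (Sylow p H) * (p * d * Nat.card (Subgroup.center H)) := by
    rw [hcardS, T.hnormcard]
  have hmom := Cfsg.Agent.Helper74.s4504_moment p x χ h d hd T
  have hsq := Cfsg.Agent.Helper27.s4504_norm_sq χ h.hχ
  have hcen : ∀ g ∈ Subgroup.center H, ‖χ g‖ = (d : ℝ) := by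
    intro g hg
    rw [← hd]; exact (Cfsg.Agent.Helper74.s4504_central χ h.hχ h.hfaith g).1 hg
  have hreg : ∀ g : H, g ∉ Subgroup.center H → ¬ p ∣ orderOf g → ‖χ g‖ ≤ 1 := by
    intro g hgz hgp
    have h1 := Cfsg.Agent.Helper14.s4504_bound p x χ h d hd T g hgp
    have h2 : ‖χ g‖ < (d : ℝ) := by
      rw [← hd]; exact (Cfsg.Agent.Helper74.s4504_central χ h.hχ h.hfaith g).2 hgz
    by_contra hcon
    have h3 : 1 < ‖χ g‖ := lt_of_not_ge hcon
    nlinarith
  have hsing := Cfsg.Agent.Helper4.s4504_sing p x χ h d hd T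
  rw [Cfsg.Agent.Helper27.s4504_gauss p x χ h d hd T] at hsing
  have hle := Cfsg.Agent.Helper27.s4504_count p d hp hd2 χ (Nat.card (Sylow p H)) hcard hmom hsq hcen hreg hcp hsing
  have hsyl := hsylup hle
  refine ⟨Cfsg.Agent.Helper39.s4504_ident p x h.grp d hp hd2 T.hcent hsyl T.hnormcard, hsyl, ?_⟩
  intro b hb hbx
  exact (T.hconj b hb).mp hbx

end Cfsg.Agent.Helper8
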