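import Mathlib
import Cfsg.Agent.Helper8.S4504Defs
import Cfsg.Agent.Helper15.S4504Shape
import Cfsg.Agent.Helper15.B42Main
import Cfsg.Agent.Helper76.CentralChar
import Cfsg.Agent.Helper81.Blocks

/-!
# Sub-CALL S4504S (helper15), piece COMPL (helper8, doubling)

An irreducible character trivial on the central subgroup `K`, different from the principal
character, the characters of `X1 ∪ X2` and the two exceptional characters `ψ₁, ψ₂`, vanishes at `x`.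
-/

universe u
set_option autoImplicit false
open Cfsg Cfsg.Agent.Helper77 Cfsg.Agent.Helper15 Cfsg.Agent.Helper8
open scoped ComplexConjugate

namespace Cfsg.Agent.Helper8

variable {G : Type u} [Group G] [Finite G]

/-- An irreducible character whose restriction to the central subgroup `K` is trivial is
invariant under translation by `K`. -/
theorem s4504c_transl (K : Subgroup G) (hKc : ∀ k ∈ K, k ∈ Subgroup.center G)
    (φ : Cfsg.IrrCharacter G) (hφK : ∀ k ∈ K, (φ : G → ℂ) k = (φ : G → ℂ) 1)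
    (g k : G) (hk : k ∈ K) : (φ : G → ℂ) (g * k) = (φ : G → ℂ) g := by
  obtain ⟨c, hc⟩ := Helper76.exists_central_scalar (Subgroup.center G).subtype
    (fun z => z.2) φ
  have h1 := hc ⟨k, hKc k hk⟩ 1
  have h2 := hc ⟨k, hKc k hk⟩ g
  simp only [Subgroup.coe_subtype] at h1 h2
  rw [one_mul, hφK k hk] at h1
  have hne := Helper81.irr_one_ne_zero φ
  have hc1 : c ⟨k, hKc k hk⟩ = 1 := by
    have h3 : (c ⟨k, hKc k hk⟩ - 1) * (φ : G → ℂ) 1 = 0 := by linear_combination -h1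
    rcases mul_eq_zero.mp h3 with h | h
    · linear_combination h
    · exact absurd h hne
  rw [h2, hc1, one_mul]

/-- class functions agreeing on the `p`-singular elements have the same inner product with a
function vanishing on the `p`-regular elements -/
theorem s4504c_singinner (p : ℕ) [Fact p.Prime] [Fintype G] (x : G) (K : Subgroup G)
    (h : D1Hyp p x K) (φ Θ Δ : G → ℂ)
    (hφ : ∀ g y : G, φ (y * g * y⁻¹) = φ g) (hΘ : ∀ g y : G, Θ (y * g * y⁻¹) = Θ g)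
    (hΔ : ∀ g : G, ¬ p ∣ orderOf g → Δ g = 0)
    (hval : ∀ b : ℕ, ¬ p ∣ b → ∀ k ∈ K, φ (x ^ b * k) = Θ (x ^ b * k)) :
    Cfsg.classInner φ Δ = Cfsg.classInner Θ Δ := by
  unfold Cfsg.classInner
  congr 1
  apply Finset.sum_congr rfl
  intro g _
  by_cases hg : p ∣ orderOf g
  · obtain ⟨y, b, k, hb, hk, hy⟩ := Helper92.b42_psing p x K h g hg
    rw [← hφ g y, ← hΘ g y, hy, hval b hb k hk]
  · rw [hΔ g hg, map_zero, mul_zero, mul_zero]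

theorem s4504c_ci_lin [Fintype G] (A B : ℂ) (f g h : G → ℂ) :
    Cfsg.classInner (fun t => A * f t + B * g t) h
      = A * Cfsg.classInner f h + B * Cfsg.classInner g h := by
  unfold Cfsg.classInner
  have h1 : ∑ t : G, (A * f t + B * g t) * conj (h t)
      = A * ∑ t : G, f t * conj (h t) + B * ∑ t : G, g t * conj (h t) := by
    rw [Finset.mul_sum, Finset.mul_sum, ← Finset.sum_add_distrib]
    exact Finset.sum_congr rfl (fun t _ => by ring)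
  rw [h1]; ring

theorem s4504c_ci_sub_right [Fintype G] (f g h : G → ℂ) :
    Cfsg.classInner f (fun t => g t - h t) = Cfsg.classInner f g - Cfsg.classInner f h := by
  unfold Cfsg.classInner
  have h1 : ∑ t : G, f t * conj (g t - h t)
      = ∑ t : G, f t * conj (g t) - ∑ t : G, f t * conj (h t) := by
    rw [← Finset.sum_sub_distrib]
    exact Finset.sum_congr rfl (fun t _ => by rw [map_sub]; ring)
  rw [h1]; ring

/-- the inner product of an irreducible character outside `{1} ∪ X1 ∪ X2` with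
`Γ = 1 + ∑ X1 - ∑ X2 + ε ψ₁` -/
theorem s4504c_ci_gamma [Fintype G] (φ ψ₁ : Cfsg.IrrCharacter G)
    (X1 X2 : Finset (Cfsg.IrrCharacter G)) (ε : ℂ) (Γ : G → ℂ)
    (hΓ : ∀ g : G, Γ g = 1 + ∑ ζ ∈ X1, (ζ : G → ℂ) g - ∑ ζ ∈ X2, (ζ : G → ℂ) g
      + ε * (ψ₁ : G → ℂ) g)
    (hφ1 : (φ : G → ℂ) ≠ fun _ => 1) (hφX1 : φ ∉ X1) (hφX2 : φ ∉ X2) :
    Cfsg.classInner (φ : G → ℂ) Γ = conj ε * Cfsg.classInner (φ : G → ℂ) (ψ₁ : G → ℂ) := by
  classical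
  have h1 : Cfsg.classInner (φ : G → ℂ) (fun _ => (1 : ℂ)) = 0 := by
    have h2 := Helper3.classInner_irr φ (Helper81.trivIrr G)
    rw [if_neg] at h2
    · exact h2
    · intro heq
      apply hφ1
      rw [heq]; rfl
  have hX : ∀ X : Finset (Cfsg.IrrCharacter G), φ ∉ X →
      ∑ ζ ∈ X, Cfsg.classInner (φ : G → ℂ) (ζ : G → ℂ) = 0 := by
    intro X hX
    apply Finset.sum_eq_zero
    intro ζ hζ
    rw [Helper3.classInner_irr, if_neg]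
    intro heq; exact hX (heq ▸ hζ)
  have hexp : Cfsg.classInner (φ : G → ℂ) Γ
      = Cfsg.classInner (φ : G → ℂ) (fun _ => (1 : ℂ))
        + ∑ ζ ∈ X1, Cfsg.classInner (φ : G → ℂ) (ζ : G → ℂ)
        - ∑ ζ ∈ X2, Cfsg.classInner (φ : G → ℂ) (ζ : G → ℂ)
        + conj ε * Cfsg.classInner (φ : G → ℂ) (ψ₁ : G → ℂ) := by
    have key : ∑ g : G, (φ : G → ℂ) g * conj (Γ g)
        = ∑ g : G, (φ : G → ℂ) g * conj (1 : ℂ)
          + ∑ ζ ∈ X1, ∑ g : G, (φ : G → ℂ) g * conj ((ζ : G → ℂ) g)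
          - ∑ ζ ∈ X2, ∑ g : G, (φ : G → ℂ) g * conj ((ζ : G → ℂ) g)
          + conj ε * ∑ g : G, (φ : G → ℂ) g * conj ((ψ₁ : G → ℂ) g) := by
      rw [Finset.sum_comm (s := X1), Finset.sum_comm (s := X2), Finset.mul_sum,
        ← Finset.sum_add_distrib, ← Finset.sum_sub_distrib, ← Finset.sum_add_distrib]
      apply Finset.sum_congr rfl
      intro g _
      rw [hΓ g, map_add, map_sub, map_add, map_sum, map_sum, map_mul, map_one]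
      rw [mul_add, mul_sub, mul_add, Finset.mul_sum, Finset.mul_sum]
      ring
    unfold Cfsg.classInner
    rw [key, ← Finset.mul_sum, ← Finset.mul_sum]
    ring
  rw [hexp, h1, hX X1 hφX1, hX X2 hφX2]
  ring

/-- COMPL: an irreducible character trivial on `K`, outside the list, vanishes at `x`. -/
theorem s4504s_compl (p : ℕ) [Fact p.Prime] [Fintype G] (x : G) (K : Subgroup G)
    (h : D1Hyp p x K) (hKc : ∀ k ∈ K, k ∈ Subgroup.center G) (v : (ZMod p)ˣ)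
    (hcls : ∀ b : ℕ, ¬ p ∣ b → (∃ n : G, n * x * n⁻¹ = x ^ b) ∨
        (∃ n : G, n * x ^ (v : ZMod p).val * n⁻¹ = x ^ b))
    (ψ₁ ψ₂ : Cfsg.IrrCharacter G)
    (hψreg : ∀ g : G, ¬ p ∣ orderOf g → (ψ₂ : G → ℂ) g = (ψ₁ : G → ℂ) g)
    (hψK : ∀ k ∈ K, (ψ₁ : G → ℂ) k = (ψ₁ : G → ℂ) 1)
    (hw : (ψ₂ : G → ℂ) x = (ψ₁ : G → ℂ) (x ^ (v : ZMod p).val))
    (hw' : (ψ₂ : G → ℂ) (x ^ (v : ZMod p).val) = (ψ₁ : G → ℂ) x)
    (hwne : (ψ₁ : G → ℂ) x ≠ (ψ₁ : G → ℂ) (x ^ (v : ZMod p).val))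
    (hwsum : (ψ₁ : G → ℂ) x + (ψ₁ : G → ℂ) (x ^ (v : ZMod p).val) ≠ 0)
    (X1 X2 : Finset (Cfsg.IrrCharacter G)) (ε : ℂ) (hε : ε ≠ 0)
    (Γ : G → ℂ) (hΓreg : ∀ g : G, ¬ p ∣ orderOf g → Γ g = 0)
    (hΓ : ∀ g : G, Γ g = 1 + ∑ ζ ∈ X1, (ζ : G → ℂ) g - ∑ ζ ∈ X2, (ζ : G → ℂ) g
      + ε * (ψ₁ : G → ℂ) g)
    (hψ₁1 : (ψ₁ : G → ℂ) ≠ fun _ => 1) (hψ₁X1 : ψ₁ ∉ X1) (hψ₁X2 : ψ₁ ∉ X2)
    (hψ₂1 : (ψ₂ : G → ℂ) ≠ fun _ => 1) (hψ₂X1 : ψ₂ ∉ X1) (hψ₂X2 : ψ₂ ∉ X2) (hψne : ψ₁ ≠ ψ₂)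
    (ξ : Cfsg.IrrCharacter G) (hξK : ∀ k ∈ K, (ξ : G → ℂ) k = (ξ : G → ℂ) 1)
    (hξ1 : (ξ : G → ℂ) ≠ fun _ => 1) (hξX1 : ξ ∉ X1) (hξX2 : ξ ∉ X2)
    (hξψ₁ : ξ ≠ ψ₁) (hξψ₂ : ξ ≠ ψ₂) : (ξ : G → ℂ) x = 0 := by
  classical
  obtain ⟨w, hwdef⟩ : ∃ w : ℂ, w = (ψ₁ : G → ℂ) x := ⟨_, rfl⟩
  obtain ⟨w', hw'def⟩ : ∃ w' : ℂ, w' = (ψ₁ : G → ℂ) (x ^ (v : ZMod p).val) := ⟨_, rfl⟩
  obtain ⟨u, hudef⟩ : ∃ u : ℂ, u = (ξ : G → ℂ) x := ⟨_, rfl⟩
  obtain ⟨u', hu'def⟩ : ∃ u' : ℂ, u' = (ξ : G → ℂ) (x ^ (v : ZMod p).val) := ⟨_, rfl⟩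
  rw [← hwdef, ← hw'def] at hwne hwsum
  rw [← hw'def] at hw
  rw [← hwdef] at hw'
  have hdet : w ^ 2 - w' ^ 2 ≠ 0 := by
    intro h0
    have h1 : (w - w') * (w + w') = 0 := by linear_combination h0
    rcases mul_eq_zero.mp h1 with h2 | h2
    · exact hwne (by linear_combination h2)
    · exact hwsum h2
  obtain ⟨A, hA⟩ : ∃ A : ℂ, A = (u * w - u' * w') / (w ^ 2 - w' ^ 2) := ⟨_, rfl⟩
  obtain ⟨B, hB⟩ : ∃ B : ℂ, B = (u' * w - u * w') / (w ^ 2 - w' ^ 2) := ⟨_, rfl⟩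
  have hAB1 : A * w + B * w' = u := by rw [hA, hB]; field_simp; ring
  have hAB2 : A * w' + B * w = u' := by rw [hA, hB]; field_simp; ring
  have hKreg : ∀ k ∈ K, ¬ p ∣ orderOf k := by
    intro k hk hdiv
    apply h.hK
    have h1 : orderOf (⟨k, hk⟩ : K) = orderOf k := Subgroup.orderOf_mk k hk
    rw [← h1] at hdiv
    exact hdiv.trans (orderOf_dvd_natCard (⟨k, hk⟩ : K))
  have hψ₂K : ∀ k ∈ K, (ψ₂ : G → ℂ) k = (ψ₂ : G → ℂ) 1 := by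
    intro k hk
    rw [hψreg k (hKreg k hk), hψreg 1 (hKreg 1 (one_mem K)), hψK k hk]
  have hΘcl : ∀ g y : G, (fun t => A * (ψ₁ : G → ℂ) t + B * (ψ₂ : G → ℂ) t) (y * g * y⁻¹)
      = (fun t => A * (ψ₁ : G → ℂ) t + B * (ψ₂ : G → ℂ) t) g := by
    intro g y
    show A * (ψ₁ : G → ℂ) (y * g * y⁻¹) + B * (ψ₂ : G → ℂ) (y * g * y⁻¹)
      = A * (ψ₁ : G → ℂ) g + B * (ψ₂ : G → ℂ) g
    rw [Helper81.irr_conj, Helper81.irr_conj]
  have hξcl : ∀ g y : G, (ξ : G → ℂ) (y * g * y⁻¹) = (ξ : G → ℂ) g :=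
    fun g y => Helper81.irr_conj ξ g y
  have hval : ∀ b : ℕ, ¬ p ∣ b → ∀ k ∈ K, (ξ : G → ℂ) (x ^ b * k)
      = (fun t => A * (ψ₁ : G → ℂ) t + B * (ψ₂ : G → ℂ) t) (x ^ b * k) := by
    intro b hb k hk
    show (ξ : G → ℂ) (x ^ b * k)
      = A * (ψ₁ : G → ℂ) (x ^ b * k) + B * (ψ₂ : G → ℂ) (x ^ b * k)
    rw [s4504c_transl K hKc ξ hξK _ k hk, s4504c_transl K hKc ψ₁ hψK _ k hk,
      s4504c_transl K hKc ψ₂ hψ₂K _ k hk]
    rcases hcls b hb with ⟨n, hn⟩ | ⟨n, hn⟩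
    · rw [← hn, Helper81.irr_conj, Helper81.irr_conj, Helper81.irr_conj, ← hudef, ← hwdef,
        hw, hAB1]
    · rw [← hn, Helper81.irr_conj, Helper81.irr_conj, Helper81.irr_conj, ← hu'def, ← hw'def,
        hw', hAB2]
  have hΔreg : ∀ g : G, ¬ p ∣ orderOf g →
      (fun t => (ψ₁ : G → ℂ) t - (ψ₂ : G → ℂ) t) g = 0 := by
    intro g hg
    show (ψ₁ : G → ℂ) g - (ψ₂ : G → ℂ) g = 0
    rw [hψreg g hg, sub_self]
  have hI1 := s4504c_singinner p x K h (ξ : G → ℂ)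
    (fun t => A * (ψ₁ : G → ℂ) t + B * (ψ₂ : G → ℂ) t)
    (fun t => (ψ₁ : G → ℂ) t - (ψ₂ : G → ℂ) t) hξcl hΘcl hΔreg hval
  have hI2 := s4504c_singinner p x K h (ξ : G → ℂ)
    (fun t => A * (ψ₁ : G → ℂ) t + B * (ψ₂ : G → ℂ) t) Γ hξcl hΘcl hΓreg hval
  have e1 : Cfsg.classInner (ξ : G → ℂ) (fun t => (ψ₁ : G → ℂ) t - (ψ₂ : G → ℂ) t) = 0 := by
    rw [s4504c_ci_sub_right, Helper3.classInner_irr, Helper3.classInner_irr, if_neg hξψ₁,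
      if_neg hξψ₂, sub_zero]
  have e2 : Cfsg.classInner (fun t => A * (ψ₁ : G → ℂ) t + B * (ψ₂ : G → ℂ) t)
      (fun t => (ψ₁ : G → ℂ) t - (ψ₂ : G → ℂ) t) = A - B := by
    rw [s4504c_ci_lin, s4504c_ci_sub_right, s4504c_ci_sub_right,
      Helper3.classInner_irr, Helper3.classInner_irr, Helper3.classInner_irr,
      Helper3.classInner_irr, if_pos rfl, if_neg hψne, if_neg (Ne.symm hψne), if_pos rfl]
    ring
  have hABeq : A = B := by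
    rw [e1, e2] at hI1
    linear_combination -hI1
  have e3 : Cfsg.classInner (ξ : G → ℂ) Γ = 0 := by
    rw [s4504c_ci_gamma ξ ψ₁ X1 X2 ε Γ hΓ hξ1 hξX1 hξX2, Helper3.classInner_irr,
      if_neg hξψ₁, mul_zero]
  have e4 : Cfsg.classInner (fun t => A * (ψ₁ : G → ℂ) t + B * (ψ₂ : G → ℂ) t) Γ
      = A * conj ε := by
    rw [s4504c_ci_lin, s4504c_ci_gamma ψ₁ ψ₁ X1 X2 ε Γ hΓ hψ₁1 hψ₁X1 hψ₁X2,
      s4504c_ci_gamma ψ₂ ψ₁ X1 X2 ε Γ hΓ hψ₂1 hψ₂X1 hψ₂X2,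
      Helper3.classInner_irr, Helper3.classInner_irr, if_pos rfl, if_neg (Ne.symm hψne)]
    ring
  rw [e3, e4] at hI2
  have hA0 : A = 0 := by
    have hce : conj ε ≠ 0 := (map_ne_zero (starRingEnd ℂ)).mpr hε
    rcases mul_eq_zero.mp hI2.symm with h1 | h1
    · exact h1
    · exact absurd h1 hce
  rw [← hudef, ← hAB1, ← hABeq, hA0]
  ring

end Cfsg.Agent.Helper8
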