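import Mathlib
import Cfsg.Agent.Helper79.S4705Defs
import Cfsg.Agent.Helper79.Basic
import Cfsg.Agent.Helper81.CharBasic
import Cfsg.Agent.Helper79.S4441Setup
import Cfsg.Agent.Helper75.Rational
import Cfsg.Agent.Helper75.Contrib2
import Cfsg.Agent.Helper81.BlockDefect

/-!
SUB-CALL S4705O (helper79), piece RAT (helper8): in the case `a = 0` with trivial centre the
character `X₂` of degree `p - 1` is integer valued (every Galois conjugate of `X₂` is an
irreducible character of degree `p - 1` with value `-1` at `x`, hence equal to `X₂`).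
-/

set_option autoImplicit false
open Cfsg Cfsg.Agent.Helper79
open scoped ComplexConjugate

universe u

namespace Cfsg.Agent.Helper8

variable {H : Type u} [Group H] [Finite H]

/-- With trivial centre every character lies over `ζ`. -/
theorem s4705o_over_of_center_bot (ζ : H → ℂ) (hZ : Subgroup.center H = ⊥)
    (ξ : H → ℂ) : S4705Over ζ ξ := by
  intro z hz
  rw [hZ, Subgroup.mem_bot] at hz
  subst hz
  ring

/-- The degree of `ζ` as a complex number. -/
theorem s4705o_zeta_one (p : ℕ) (x : H) (ζ : H → ℂ) (h : S4705Wk p x ζ) :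
    ζ 1 = (p : ℂ) - 2 := by
  have e1 := Helper81.irr_one_eq_charDegree (⟨ζ, h.hζ⟩ : Cfsg.IrrCharacter H)
  have e2 : ((Cfsg.charDegree ζ + 2 : ℕ) : ℂ) = (p : ℂ) := by rw [h.hdeg]
  push_cast at e2
  change ζ 1 = _ at e1
  rw [e1]
  linear_combination e2

/-- RAT: `X₂` is integer valued. -/
theorem s4705o_rat (p : ℕ) [Fact p.Prime] (x : H) (ζ : H → ℂ) (h : S4705Wk p x ζ)
    (X₁ X₂ : Cfsg.IrrCharacter H) (Y : Finset (Cfsg.IrrCharacter H))
    (T : S4705TabL p x ζ 0 X₁ X₂ Y) (hZ : Subgroup.center H = ⊥) :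
    ∀ g : H, ∃ n : ℤ, (X₂ : H → ℂ) g = (n : ℂ) := by
  classical
  letI : Fintype H := Fintype.ofFinite H
  have hpp : p.Prime := Fact.out
  have hp5 := h.hp
  have hnd1 : ¬ p ∣ 1 := fun hd => hpp.one_lt.ne' (Nat.dvd_one.mp hd)
  have hord1 : ¬ p ∣ orderOf (1 : H) := by rw [orderOf_one]; exact hnd1
  have hd1 : (X₁ : H → ℂ) 1 = 1 := by
    have e := T.deg₁
    simpa using e
  have hd2 : (X₂ : H → ℂ) 1 = (p : ℂ) - 1 := by
    have e := T.deg₂
    simp only [zero_add, one_mul] at e
    linear_combination e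
  have hζ1 := s4705o_zeta_one p x ζ h
  have hdY : ∀ ψ ∈ Y, (ψ : H → ℂ) 1 = (p : ℂ) - 2 := fun ψ hψ => by
    rw [T.Yreg ψ hψ 1 hord1, hζ1]
  have hx2 : (X₂ : H → ℂ) x = -1 := by
    have e := T.val₂ 1 hnd1
    rwa [pow_one] at e
  intro g
  apply Helper75.int_of_fixed (Nat.card H) Nat.card_pos.ne' _ (Helper75.irr_mem_cycField X₂ g)
    (Helper81.irr_isIntegral X₂ g)
  intro σ
  have hx : (galIrr σ X₂ : H → ℂ) x = -1 := by
    rw [galIrr_apply, hx2, map_neg, map_one]
  have h1 : (galIrr σ X₂ : H → ℂ) 1 = (p : ℂ) - 1 := by rw [galIrr_one, hd2]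
  have hp5' : (5 : ℝ) < (p : ℝ) := by exact_mod_cast hp5
  have key : galIrr σ X₂ = X₂ := by
    by_contra hne
    by_cases e1 : galIrr σ X₂ = X₁
    · rw [e1, hd1] at h1
      have h2 : (p : ℂ) = 2 := by linear_combination -h1
      have h3 : p = 2 := by exact_mod_cast h2
      omega
    by_cases eY : galIrr σ X₂ ∈ Y
    · have e2 := hdY _ eY
      rw [h1] at e2
      have h2 : (1 : ℂ) = 2 := by linear_combination -e2
      norm_num at h2
    have e3 := T.compl _ (s4705o_over_of_center_bot ζ hZ _) e1 hne eY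
    rw [hx] at e3
    norm_num at e3
  have e4 := congrArg (fun χ : Cfsg.IrrCharacter H => (χ : H → ℂ) g) key
  simpa [galIrr_apply] using e4

end Cfsg.Agent.Helper8
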