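import Mathlib
import Cfsg.Agent.Helper79.S4705Defs
import Cfsg.Agent.Helper79.Basic
import Cfsg.Agent.Helper81.CharBasic
import Cfsg.Agent.Helper67.BRK1
import Cfsg.Agent.Helper80.CharIrr
import Cfsg.Agent.Helper8.S4705ORAT

/-!
SUB-CALL S4705O (helper79), piece POS (helper8): in the case `a = 0` with trivial centre the
character `X₂` is nonnegative on the `p`-regular elements.  The class multiplication constant
`#{(a, b) : x^a (x⁻¹)^b = g} = |H| Σ_χ χ(x) χ(x⁻¹) conj χ(g) / χ(1)` only involves `X₁, X₂, Y`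
and equals `|H| n p / (p - 1)` when `X₂ g = n`.
-/

set_option autoImplicit false
open Cfsg Cfsg.Agent.Helper79
open scoped ComplexConjugate

universe u

namespace Cfsg.Agent.Helper8

variable {H : Type u} [Group H] [Finite H]

/-- POS: `X₂` is nonnegative on the `p`-regular elements. -/
theorem s4705o_pos (p : ℕ) [Fact p.Prime] (x : H) (ζ : H → ℂ) (h : S4705Wk p x ζ)
    (X₁ X₂ : Cfsg.IrrCharacter H) (Y : Finset (Cfsg.IrrCharacter H))
    (T : S4705TabL p x ζ 0 X₁ X₂ Y) (hZ : Subgroup.center H = ⊥)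
    (hX₁ : ∀ g : H, (X₁ : H → ℂ) g = 1) (g : H) (hg : ¬ p ∣ orderOf g) (n : ℤ)
    (hn : (X₂ : H → ℂ) g = (n : ℂ)) : 0 ≤ n := by
  classical
  letI : Fintype H := Fintype.ofFinite H
  letI : Fintype (Cfsg.IrrCharacter H) := Fintype.ofFinite _
  have hpp : p.Prime := Fact.out
  have hp5 := h.hp
  have hnd1 : ¬ p ∣ 1 := fun hd => hpp.one_lt.ne' (Nat.dvd_one.mp hd)
  have hord1 : ¬ p ∣ orderOf (1 : H) := by rw [orderOf_one]; exact hnd1
  have hd2 : (X₂ : H → ℂ) 1 = (p : ℂ) - 1 := by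
    have e := T.deg₂
    simp only [zero_add, one_mul] at e
    linear_combination e
  have hζ1 := s4705o_zeta_one p x ζ h
  have hdY : ∀ ψ ∈ Y, (ψ : H → ℂ) 1 = (p : ℂ) - 2 := fun ψ hψ => by
    rw [T.Yreg ψ hψ 1 hord1, hζ1]
  have hx2 : (X₂ : H → ℂ) x = -1 := by
    have e := T.val₂ 1 hnd1
    rwa [pow_one] at e
  have hζg : ζ g = (n : ℂ) - 1 := by
    rw [← T.reg g hg, hn, hX₁]
  have hYg : ∀ ψ ∈ Y, (ψ : H → ℂ) g = (n : ℂ) - 1 := fun ψ hψ => by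
    rw [T.Yreg ψ hψ g hg, hζg]
  have hinv : ∀ (χ : Cfsg.IrrCharacter H) (y : H), (χ : H → ℂ) y⁻¹ = conj ((χ : H → ℂ) y) :=
    fun χ y => Helper80.isCharacter_inv (Helper80.isCharacter_of_irr χ.2) y
  have hp1 : (p : ℂ) - 1 ≠ 0 := by
    have : ((p - 1 : ℕ) : ℂ) ≠ 0 := by
      have : p - 1 ≠ 0 := by omega
      exact_mod_cast this
    rw [Nat.cast_sub (by omega)] at this
    simpa using this
  have hp2 : (p : ℂ) - 2 ≠ 0 := by
    have : ((p - 2 : ℕ) : ℂ) ≠ 0 := by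
      have : p - 2 ≠ 0 := by omega
      exact_mod_cast this
    rw [Nat.cast_sub (by omega)] at this
    simpa using this
  have hcc := Helper67.br_class_const x x⁻¹ g
  rw [finsum_eq_sum_of_fintype] at hcc
  have hsum : ∑ χ : Cfsg.IrrCharacter H,
      (χ : H → ℂ) x * (χ : H → ℂ) x⁻¹ * conj ((χ : H → ℂ) g) / (χ : H → ℂ) 1
      = ∑ χ ∈ insert X₁ (insert X₂ Y),
      (χ : H → ℂ) x * (χ : H → ℂ) x⁻¹ * conj ((χ : H → ℂ) g) / (χ : H → ℂ) 1 := by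
    symm
    apply Finset.sum_subset (Finset.subset_univ _)
    intro χ _ hχ
    simp only [Finset.mem_insert, not_or] at hχ
    have e := T.compl χ (s4705o_over_of_center_bot ζ hZ _) hχ.1 hχ.2.1 hχ.2.2
    rw [e]
    simp
  have hn1 : X₁ ∉ insert X₂ Y := by
    simp only [Finset.mem_insert, not_or]
    exact ⟨T.ne, T.n₁⟩
  have hY : ∑ χ ∈ Y,
      (χ : H → ℂ) x * (χ : H → ℂ) x⁻¹ * conj ((χ : H → ℂ) g) / (χ : H → ℂ) 1
      = (n : ℂ) - 1 := by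
    have e1 : ∀ χ ∈ Y,
        (χ : H → ℂ) x * (χ : H → ℂ) x⁻¹ * conj ((χ : H → ℂ) g) / (χ : H → ℂ) 1
        = ((χ : H → ℂ) x * conj ((χ : H → ℂ) x)) * (((n : ℂ) - 1) / ((p : ℂ) - 2)) := by
      intro χ hχ
      rw [hinv χ x, hYg χ hχ, hdY χ hχ]
      simp only [map_sub, map_one, map_intCast]
      ring
    rw [Finset.sum_congr rfl e1, ← Finset.sum_mul, T.Ysq]
    field_simp
  rw [hsum, Finset.sum_insert hn1, Finset.sum_insert T.n₂, hY] at hcc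
  rw [hinv X₁ x, hinv X₂ x, hX₁ x, hX₁ g, hX₁ 1, hx2, hn, hd2] at hcc
  simp only [map_one, map_neg, map_intCast] at hcc
  have hcc2 : (Nat.card {gh : H × H // gh.1 * x * gh.1⁻¹ * (gh.2 * x⁻¹ * gh.2⁻¹) = g} : ℂ)
      * ((p : ℂ) - 1) = (Nat.card H : ℂ) * (n : ℂ) * (p : ℂ) := by
    rw [hcc]
    field_simp
    ring
  have hcc3 : ((Nat.card {gh : H × H // gh.1 * x * gh.1⁻¹ * (gh.2 * x⁻¹ * gh.2⁻¹) = g} : ℤ))
      * ((p : ℤ) - 1) = (Nat.card H : ℤ) * n * (p : ℤ) := by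
    exact_mod_cast hcc2
  by_contra hneg0
  have hneg : n < 0 := not_le.mp hneg0
  have hH : (0 : ℤ) < (Nat.card H : ℤ) := by exact_mod_cast Nat.card_pos
  have hpz : (5 : ℤ) < (p : ℤ) := by exact_mod_cast hp5
  have hc0 : (0 : ℤ) ≤
      ((Nat.card {gh : H × H // gh.1 * x * gh.1⁻¹ * (gh.2 * x⁻¹ * gh.2⁻¹) = g} : ℤ)) :=
    Int.natCast_nonneg _
  have hl : (0 : ℤ) ≤
      ((Nat.card {gh : H × H // gh.1 * x * gh.1⁻¹ * (gh.2 * x⁻¹ * gh.2⁻¹) = g} : ℤ))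
      * ((p : ℤ) - 1) := mul_nonneg hc0 (by linarith)
  have hr : (Nat.card H : ℤ) * n * (p : ℤ) < 0 := by
    have : (Nat.card H : ℤ) * n < 0 := mul_neg_of_pos_of_neg hH hneg
    exact mul_neg_of_neg_of_pos this (by linarith)
  linarith

end Cfsg.Agent.Helper8
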