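import Mathlib
import Cfsg.Agent.Helper79.S4705Defs
import Cfsg.Agent.Helper15.B42Main
import Cfsg.Agent.Helper74.S4504CEN
import Cfsg.Agent.Helper88.B42SHAPE

/-!
CALL S4705SH (helper45, stage SHAPE of CALL S4705), piece ARITH (helper8, double): a character
of degree `p - 2` whose value at `x` is `ε t ∑_{s ∈ F} ζ^(s l₀)` either has `χ x = deg · ζ^l₀`
or `|F| = 2` and `χ (x ^ b) + ζ^(l₀ b) + ζ^(-l₀ b) = [p ∣ b] p`.
Adapted from `Cfsg.Agent.Helper15.b42_shape_of_value_le`.
-/

set_option autoImplicit false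
open Cfsg Cfsg.Agent.Helper77 Cfsg.Agent.Helper15
open scoped ComplexConjugate

universe u

namespace Cfsg.Agent.Helper8.S4705SHARITH

variable {H : Type u} [Group H] [Finite H]

set_option maxHeartbeats 1600000 in
theorem sh_arith (p : ℕ) [Fact p.Prime] (hp5 : 5 < p) (x : H) (hx : orderOf x = p)
    (F : Subgroup (ZMod p)ˣ) (hF : (F : Set (ZMod p)ˣ) = normUnits p x)
    (χ : H → ℂ) (hχ : Cfsg.IsCharacter H χ) (t : ℕ) (ht : 0 < t) (l₀ : ZMod p) (hl₀ : l₀ ≠ 0)
    (ε : ℤ) (hε : ε = 1 ∨ ε = -1)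
    (hval : χ x = (ε : ℂ) * (t : ℂ)
      * ∑ᶠ s ∈ normUnits p x, d1zeta p ^ (((s : (ZMod p)ˣ) : ZMod p) * l₀).val)
    (hker : χ x ≠ χ 1) (hdeg : Cfsg.charDegree χ + 2 = p) :
    (χ x = ((Cfsg.charDegree χ : ℕ) : ℂ) * d1zeta p ^ l₀.val) ∨
    (Nat.card F = 2 ∧ ∀ b : ℕ,
      χ (x ^ b) + d1zeta p ^ (l₀.val * b) + d1zeta p ^ ((-l₀).val * b)
        = if p ∣ b then (p : ℂ) else 0) := by
  classical
  obtain ⟨n, ρ, rfl⟩ := hχ
  have hp : p.Prime := Fact.out
  have hζ : IsPrimitiveRoot (d1zeta p) p := Complex.isPrimitiveRoot_exp p hp.ne_zero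
  have hζp := hζ.pow_eq_one
  generalize d1zeta p = ζ at hζ hζp hval ⊢
  have hf : (ρ x) ^ p = 1 := by rw [← map_pow, ← hx, pow_orderOf_eq_one, map_one]
  obtain ⟨s, hs1, hs2, hs3⟩ := Helper75.exists_eigen_multiset (ρ x) p hp.ne_zero hf
  have hchar : ∀ k : ℕ, ρ.character (x ^ k) = (s.map (fun μ => μ ^ k)).sum := by
    intro k
    rw [← hs3 k, ← map_pow]
    rfl
  set m : ZMod p → ℕ := fun j => s.count (ζ ^ j.val) with hm
  have hexp : ∀ k : ℕ, ρ.character (x ^ k) = ∑ j : ZMod p, (m j : ℂ) * ζ ^ (j.val * k) := by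
    intro k
    rw [hchar k, Helper88.mult_expand88 p ζ hζ s hs1]
    refine Finset.sum_congr rfl (fun j _ => ?_)
    rw [pow_mul]
  have hdegC : ρ.character 1 = ((∑ j : ZMod p, m j : ℕ) : ℂ) := by
    have h0 := hexp 0
    simp only [pow_zero, mul_zero, mul_one] at h0
    rw [h0]
    push_cast
    rfl
  have hdegS : Cfsg.charDegree ρ.character = ∑ j : ZMod p, m j := by
    unfold Cfsg.charDegree
    rw [hdegC, Complex.natCast_re, Nat.floor_natCast]
  have hx1 : ρ.character x = ∑ j : ZMod p, (m j : ℂ) * ζ ^ j.val := by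
    have h1 := hexp 1
    simpa using h1
  -- the finite set `F`
  let Fs : Finset (ZMod p)ˣ := Finset.univ.filter (· ∈ F)
  have hmemFs : ∀ s : (ZMod p)ˣ, s ∈ Fs ↔ s ∈ F := fun s => by simp [Fs]
  have hfs : ∀ f : (ZMod p)ˣ → ℂ, ∑ᶠ s ∈ normUnits p x, f s = ∑ s ∈ Fs, f s := by
    intro f
    have hset : (F : Set (ZMod p)ˣ) = (Fs : Set (ZMod p)ˣ) := by
      ext s; simp [Fs]
    rw [← hF, hset, finsum_mem_coe_finset]
  have hcard : Fs.card = Nat.card F := by
    rw [Nat.card_eq_fintype_card]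
    exact (Fintype.card_of_subtype Fs hmemFs).symm
  have hinjL : ∀ a ∈ Fs, ∀ b ∈ Fs, (a : ZMod p) * l₀ = (b : ZMod p) * l₀ → a = b := by
    intro a _ b _ hab
    exact Units.ext (mul_right_cancel₀ hl₀ hab)
  let L : Finset (ZMod p) := Fs.image (fun s : (ZMod p)ˣ => (s : ZMod p) * l₀)
  have hLcard : L.card = Nat.card F := by
    rw [← hcard]
    exact Finset.card_image_of_injOn (fun a ha b hb hab => hinjL a ha b hb hab)
  have hL0 : (0 : ZMod p) ∉ L := by
    intro h0
    obtain ⟨s', -, hs'⟩ := Finset.mem_image.mp h0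
    rcases mul_eq_zero.mp hs' with h | h
    · exact s'.ne_zero h
    · exact hl₀ h
  have hLl₀ : l₀ ∈ L := Finset.mem_image.mpr ⟨1, (hmemFs 1).mpr F.one_mem, by simp⟩
  have hLsum : ∀ g : ZMod p → ℂ, ∑ s ∈ Fs, g ((s : ZMod p) * l₀)
      = ∑ j : ZMod p, (if j ∈ L then g j else 0) := by
    intro g
    rw [Finset.sum_ite_mem, Finset.univ_inter]
    exact (Finset.sum_image hinjL).symm
  -- all the coefficients of the relation are equal
  have hsum0 : ∑ j : ZMod p,
      ((((m j : ℤ) - ε * t * (if j ∈ L then 1 else 0) : ℤ)) : ℂ) * ζ ^ j.val = 0 := by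
    have h2 : ∑ s ∈ Fs, ζ ^ ((s : ZMod p) * l₀).val
        = ∑ j : ZMod p, (if j ∈ L then ζ ^ j.val else 0) := hLsum (fun j => ζ ^ j.val)
    rw [hfs, h2, hx1] at hval
    have hterm : ∀ j : ZMod p,
        ((((m j : ℤ) - ε * t * (if j ∈ L then 1 else 0) : ℤ)) : ℂ) * ζ ^ j.val
        = (m j : ℂ) * ζ ^ j.val - (ε : ℂ) * (t : ℂ) * (if j ∈ L then ζ ^ j.val else 0) := by
      intro j
      split_ifs <;> push_cast <;> ring
    rw [Finset.sum_congr rfl (fun j _ => hterm j), Finset.sum_sub_distrib, ← Finset.mul_sum,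
      ← hval, sub_self]
  have hK1 : ∀ j : ZMod p, (m j : ℤ) = m 0 + ε * t * (if j ∈ L then 1 else 0) := by
    intro j
    have h1 := Helper88.coeff_const88 p ζ hζ
      (fun j => (m j : ℤ) - ε * t * (if j ∈ L then 1 else 0)) hsum0 j
    simp only [if_neg hL0] at h1
    linarith
  have hn : ((∑ j : ZMod p, m j : ℕ) : ℤ) = p * m 0 + ε * t * Nat.card F := by
    have e1 : ∑ _j : ZMod p, ((m 0 : ℤ)) = p * m 0 := by
      rw [Finset.sum_const, Finset.card_univ, ZMod.card, nsmul_eq_mul]
    have e2 : ∑ j : ZMod p, (if j ∈ L then (1 : ℤ) else 0) = Nat.card F := by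
      rw [Finset.sum_ite_mem, Finset.univ_inter, Finset.sum_const, nsmul_eq_mul, mul_one, hLcard]
    rw [Nat.cast_sum, Finset.sum_congr rfl (fun j _ => hK1 j), Finset.sum_add_distrib,
      ← Finset.mul_sum, e1, e2]
  have hfdvd : Nat.card F ∣ p - 1 := by
    have h1 := Subgroup.card_subgroup_dvd_card F
    rwa [Nat.card_eq_fintype_card (α := (ZMod p)ˣ), ZMod.card_units p] at h1
  have hfpos : 0 < Nat.card F := Nat.card_pos
  have hl : (m l₀ : ℤ) = m 0 + ε * t := by
    have h1 := hK1 l₀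
    rw [if_pos hLl₀, mul_one] at h1
    exact h1
  rw [hdegS] at hdeg
  have hsumZ : ((∑ j : ZMod p, m j : ℕ) : ℤ) + 2 = p := by exact_mod_cast hdeg
  have hpZ : (5 : ℤ) < p := by exact_mod_cast hp5
  have htZ : (0 : ℤ) < t := by exact_mod_cast ht
  have hfZ : (0 : ℤ) < (Nat.card F : ℤ) := by exact_mod_cast hfpos
  have hmlZ : (0 : ℤ) ≤ m l₀ := Nat.cast_nonneg _
  have hm0Z : (0 : ℤ) ≤ m 0 := Nat.cast_nonneg _
  have hfle : Nat.card F ≤ p - 1 := Nat.le_of_dvd (by omega) hfdvd
  have hfleZ : (Nat.card F : ℤ) ≤ (p : ℤ) - 1 := by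
    have : ((Nat.card F : ℕ) : ℤ) ≤ ((p - 1 : ℕ) : ℤ) := by exact_mod_cast hfle
    rw [Nat.cast_sub hp.one_le] at this
    push_cast at this
    exact this
  rcases hε with h | h
  · -- `ε = 1`: `F` is trivial and `χ x = deg · ζ^l₀`
    subst h
    left
    have hM0 : m 0 = 0 := by
      by_contra hM0
      have hM1 : (1 : ℤ) ≤ m 0 := by
        have : 1 ≤ m 0 := Nat.one_le_iff_ne_zero.mpr hM0
        exact_mod_cast this
      nlinarith [mul_nonneg (by linarith : (0 : ℤ) ≤ (p : ℤ))
        (by linarith : (0 : ℤ) ≤ (m 0 : ℤ) - 1), mul_pos htZ hfZ]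
    have htf : (t : ℤ) * (Nat.card F : ℤ) + 2 = p := by
      have h1 := hsumZ
      rw [hn, hM0] at h1
      push_cast at h1
      linarith
    have htfN : t * Nat.card F + 2 = p := by exact_mod_cast htf
    have hf1 : Nat.card F = 1 := by
      have h1 : Nat.card F ∣ p - 2 := ⟨t, by rw [Nat.mul_comm]; omega⟩
      have h2 : Nat.card F ∣ (p - 1) - (p - 2) := Nat.dvd_sub hfdvd h1
      have h3 : (p - 1) - (p - 2) = 1 := by omega
      rw [h3] at h2
      exact Nat.dvd_one.mp h2
    have htdeg : t + 2 = p := by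
      rw [hf1] at htfN
      omega
    have hL1 : L = {l₀} := by
      have hc : L.card = 1 := by rw [hLcard, hf1]
      obtain ⟨a, ha⟩ := Finset.card_eq_one.mp hc
      have ha' : l₀ = a := by
        have := hLl₀
        rw [ha] at this
        exact Finset.mem_singleton.mp this
      rw [ha, ha']
    have hsum : ∑ j : ZMod p, m j = t := by omega
    rw [hx1, hdegS, hsum, Finset.sum_eq_single l₀]
    · have h' := hK1 l₀
      rw [if_pos hLl₀, hM0] at h'
      push_cast at h'
      have hmj : m l₀ = t := by exact_mod_cast (by linarith : (m l₀ : ℤ) = t)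
      rw [hmj]
    · intro j _ hj
      have h' := hK1 j
      have hjL : j ∉ L := by
        rw [hL1, Finset.mem_singleton]
        exact hj
      rw [if_neg hjL, hM0] at h'
      push_cast at h'
      have hmj : m j = 0 := by exact_mod_cast (by linarith : (m j : ℤ) = 0)
      rw [hmj]
      simp
    · intro h
      exact absurd (Finset.mem_univ _) h
  · -- `ε = -1`: `m 0 = t = 1`, `|F| = 2`
    subst h
    right
    have htM : (t : ℤ) ≤ m 0 := by linarith
    have hrel : (p : ℤ) * m 0 - t * Nat.card F + 2 = p := by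
      have h1 := hsumZ
      rw [hn] at h1
      linarith
    have hMt : (m 0 : ℤ) = t := by
      by_contra hne
      have hlt : (t : ℤ) + 1 ≤ m 0 := by omega
      nlinarith [mul_nonneg (by linarith : (0 : ℤ) ≤ (m 0 : ℤ) - 1 - t)
        (by linarith : (0 : ℤ) ≤ (p : ℤ) - 1),
        mul_nonneg htZ.le (by linarith : (0 : ℤ) ≤ (p : ℤ) - 1 - Nat.card F)]
    have hfp : Nat.card F ≠ p - 1 := by
      intro hfp
      have hfz : (Nat.card F : ℤ) = (p : ℤ) - 1 := by
        rw [hfp, Nat.cast_sub hp.one_le, Nat.cast_one]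
      rw [hfz] at hn
      have hN : ∑ j : ZMod p, m j = m 0 := by
        have h1 : ((∑ j : ZMod p, m j : ℕ) : ℤ) = (m 0 : ℤ) := by
          rw [hn, ← hMt]; ring
        exact_mod_cast h1
      have hzero : ∀ j : ZMod p, j ≠ 0 → m j = 0 := by
        intro j hj
        have h1 := Finset.add_sum_erase Finset.univ m (Finset.mem_univ (0 : ZMod p))
        have h2 : ∑ j ∈ Finset.univ.erase (0 : ZMod p), m j = 0 := by omega
        exact Finset.sum_eq_zero_iff.mp h2 j (Finset.mem_erase.mpr ⟨hj, Finset.mem_univ _⟩)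
      apply hker
      rw [hx1, hdegC, hN, Finset.sum_eq_single (0 : ZMod p)]
      · simp
      · intro j _ hj
        rw [hzero j hj]
        simp
      · intro h
        exact absurd (Finset.mem_univ _) h
    obtain ⟨k, hk⟩ := hfdvd
    have hk2 : 2 ≤ k := by
      rcases Nat.lt_or_ge k 2 with h | h
      · exfalso
        interval_cases k
        · have := hp.one_lt
          omega
        · exact hfp (by omega)
      · exact h
    have h2f : 2 * Nat.card F ≤ p - 1 := by
      rw [hk]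
      nlinarith
    have h2fZ : 2 * (Nat.card F : ℤ) ≤ (p : ℤ) - 1 := by
      have : ((2 * Nat.card F : ℕ) : ℤ) ≤ ((p - 1 : ℕ) : ℤ) := by exact_mod_cast h2f
      rw [Nat.cast_sub hp.one_le] at this
      push_cast at this
      exact this
    have hM1 : (m 0 : ℤ) = 1 := by
      have hM1' : (1 : ℤ) ≤ m 0 := by linarith
      by_contra hne
      have hM2 : (2 : ℤ) ≤ m 0 := by omega
      rw [← hMt] at hrel
      nlinarith [mul_nonneg (by linarith : (0 : ℤ) ≤ (m 0 : ℤ) - 2)
        (by linarith : (0 : ℤ) ≤ (p : ℤ) - Nat.card F)]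
    have ht1 : (t : ℤ) = 1 := by rw [← hMt, hM1]
    have hf2Z : (Nat.card F : ℤ) = 2 := by
      rw [hM1, ht1] at hrel
      linarith
    have hf2 : Nat.card F = 2 := by exact_mod_cast hf2Z
    refine ⟨hf2, ?_⟩
    -- `L = {l₀, -l₀}`
    have hLneg : -l₀ ∈ L := by
      have hFs2 : Fs.card = 2 := by rw [hcard, hf2]
      obtain ⟨a, b, hab, hFsab⟩ := Finset.card_eq_two.mp hFs2
      obtain ⟨s', hsFs, hs1'⟩ : ∃ s' ∈ Fs, s' ≠ 1 := by
        by_cases ha1 : a = 1
        · refine ⟨b, by rw [hFsab]; simp, ?_⟩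
          intro hb1
          exact hab (ha1.trans hb1.symm)
        · exact ⟨a, by rw [hFsab]; simp, ha1⟩
      have hsF : s' ∈ F := (hmemFs s').mp hsFs
      have hs2' : s' ^ 2 = 1 := by
        have h1 : (⟨s', hsF⟩ : F) ^ Nat.card F = 1 := pow_card_eq_one'
        rw [hf2] at h1
        have h2 := congrArg (Subtype.val) h1
        simpa using h2
      have hsv : (s' : ZMod p) ^ 2 = 1 := by
        have h2 := congrArg (fun u : (ZMod p)ˣ => (u : ZMod p)) hs2'
        simpa using h2
      have hsneg : (s' : ZMod p) = -1 := by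
        have h3 : ((s' : ZMod p) - 1) * ((s' : ZMod p) + 1) = 0 := by linear_combination hsv
        rcases mul_eq_zero.mp h3 with h4 | h4
        · exfalso
          apply hs1'
          exact Units.ext (by simpa using sub_eq_zero.mp h4)
        · exact eq_neg_of_add_eq_zero_left h4
      exact Finset.mem_image.mpr ⟨s', hsFs, by rw [hsneg]; ring⟩
    have hneq : -l₀ ≠ l₀ := by
      intro hh
      have h2 : (2 : ZMod p) * l₀ = 0 := by linear_combination -hh
      rcases mul_eq_zero.mp h2 with h3 | h3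
      · have h4 : ((2 : ℕ) : ZMod p) = 0 := by exact_mod_cast h3
        rw [ZMod.natCast_eq_zero_iff] at h4
        have h5 := Nat.le_of_dvd (by norm_num) h4
        omega
      · exact hl₀ h3
    have hL2 : L = {l₀, -l₀} := by
      symm
      apply Finset.eq_of_subset_of_card_le
      · intro j hj
        rw [Finset.mem_insert, Finset.mem_singleton] at hj
        rcases hj with rfl | rfl
        · exact hLl₀
        · exact hLneg
      · rw [hLcard, hf2, Finset.card_pair hneq.symm]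
    intro b
    rw [hexp b]
    have hmj : ∀ j : ZMod p, (m j : ℂ) = 1 - (if j ∈ L then 1 else 0) := by
      intro j
      have h' := hK1 j
      rw [hM1, ht1] at h'
      by_cases hj : j ∈ L
      · rw [if_pos hj] at h' ⊢
        have h0 : m j = 0 := by exact_mod_cast (by linarith : (m j : ℤ) = 0)
        rw [h0]
        simp
      · rw [if_neg hj] at h' ⊢
        have h0 : m j = 1 := by exact_mod_cast (by linarith : (m j : ℤ) = 1)
        rw [h0]
        simp
    have hsumall : ∑ j : ZMod p, ζ ^ (j.val * b) = if p ∣ b then (p : ℂ) else 0 := by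
      have h1 : ∀ j : ZMod p, ζ ^ (j.val * b) = ζ ^ (j * (b : ZMod p)).val := by
        intro j
        rw [mul_comm j, d1f_natCast_mul p ζ hζp, mul_comm]
      rw [Finset.sum_congr rfl (fun j _ => h1 j), d1f_sum p ζ hζ]
      by_cases hb : p ∣ b
      · rw [if_pos hb, if_pos ((ZMod.natCast_eq_zero_iff b p).mpr hb)]
      · rw [if_neg hb, if_neg (fun h0 => hb ((ZMod.natCast_eq_zero_iff b p).mp h0))]
    have hsumL : ∑ j : ZMod p, (if j ∈ L then ζ ^ (j.val * b) else 0)
        = ζ ^ (l₀.val * b) + ζ ^ ((-l₀).val * b) := by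
      rw [Finset.sum_ite_mem, Finset.univ_inter, hL2, Finset.sum_pair hneq.symm]
    have hterm : ∀ j : ZMod p, (m j : ℂ) * ζ ^ (j.val * b)
        = ζ ^ (j.val * b) - (if j ∈ L then ζ ^ (j.val * b) else 0) := by
      intro j
      rw [hmj j]
      split_ifs <;> ring
    rw [Finset.sum_congr rfl (fun j _ => hterm j), Finset.sum_sub_distrib, hsumall, hsumL]
    ring

end Cfsg.Agent.Helper8.S4705SHARITH
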