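import Mathlib
import Cfsg.Prelude.Def_GeometricClasses
import Cfsg.Agent.Helper71.T4Defs
import Cfsg.Agent.Helper97.OForm
import Cfsg.Agent.Helper96.T5Defs

/-!
# Helper8: piece UISO of the CALL S5704 (helper96).

For an isometry `g` in the unipotent radical of the stabiliser of `U ⊗ d`, the commutator of
the root element `1 ⊗ t_w` (`w ⊥ d`) with `g` is the standard element `Gm d w A (-(A* A))`,
where `A` is the `(w, dt)` block of `g - 1`.
-/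

set_option autoImplicit false
set_option linter.unusedVariables false
set_option linter.unusedSectionVars false

namespace Cfsg.Agent.Helper8.T5UISO

open Matrix Cfsg Cfsg.Geo Cfsg.Agent.Helper71.T4 Cfsg.Agent.Helper96.T5
open scoped Kronecker

variable {F : Type*} [Field F] {a b : ℕ}

/-- `(A ⊗ x βᵀ) v = A (contraction of v against β) ⊗ x`. -/
theorem kron_vmv_mulVec (A : Matrix (Fin a) (Fin a) F) (x β : Fin b → F)
    (v : Fin a × Fin b → F) :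
    (A ⊗ₖ vecMulVec x β) *ᵥ v = pt (A *ᵥ fun i => ∑ k, β k * v (i, k)) x := by
  ext ⟨i, k⟩
  simp only [Matrix.mulVec, dotProduct, Matrix.kronecker_apply, Matrix.vecMulVec_apply, pt,
    Fintype.sum_prod_type, Finset.sum_mul, Finset.mul_sum]
  refine Finset.sum_congr rfl fun j _ => Finset.sum_congr rfl fun l _ => ?_
  ring

/-- `(A ⊗ rk x y) v = A (cnt y v) ⊗ x`. -/
theorem kron_rk_mulVec (J₂ : Matrix (Fin b) (Fin b) F) (A : Matrix (Fin a) (Fin a) F)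
    (x y : Fin b → F) (v : Fin a × Fin b → F) :
    (A ⊗ₖ rk J₂ x y) *ᵥ v = pt (A *ᵥ cnt J₂ y v) x := by
  rw [rk, kron_vmv_mulVec]
  rfl

/-- The tensor form against a pure tensor. -/
theorem bf_kron_pt_right (J₁ : Matrix (Fin a) (Fin a) F) (J₂ : Matrix (Fin b) (Fin b) F)
    (v : Fin a × Fin b → F) (u : Fin a → F) (e : Fin b → F) :
    bf (J₁ ⊗ₖ J₂) v (pt u e) = bf J₁ (cnt J₂ e v) u := by
  rw [bf, kron_mulVec_pt]
  simp only [bf, dotProduct, pt, cnt, Fintype.sum_prod_type, Finset.sum_mul]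
  refine Finset.sum_congr rfl fun i _ => Finset.sum_congr rfl fun k _ => ?_
  ring

theorem cnt_neg (J₂ : Matrix (Fin b) (Fin b) F) (y : Fin b → F) (v : Fin a × Fin b → F) :
    cnt J₂ y (-v) = - cnt J₂ y v := by
  ext i; simp [cnt]

theorem cnt_sub (J₂ : Matrix (Fin b) (Fin b) F) (y : Fin b → F) (v v' : Fin a × Fin b → F) :
    cnt J₂ y (v - v') = cnt J₂ y v - cnt J₂ y v' := by
  rw [sub_eq_add_neg, cnt_add, cnt_neg, sub_eq_add_neg]

theorem pt_neg_left (u : Fin a → F) (w : Fin b → F) : pt (-u) w = - pt u w := by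
  ext p; simp [pt]

/-- Non-degeneracy on the right. -/
theorem eq_zero_of_bf_right (J : Matrix (Fin a) (Fin a) F) (halt : ∀ x, bf J x x = 0)
    (hdet : J.det ≠ 0) (x : Fin a → F) (h : ∀ u, bf J u x = 0) : x = 0 := by
  by_contra hx
  obtain ⟨y, hy⟩ := exists_bf_eq_one J hdet x hx
  have h1 := h y
  rw [bf_swap J halt, hy] at h1
  simp at h1

/-- The action of `1 ⊗ t_w(c)`. -/
theorem one_kron_tv_mulVec (J₂ : Matrix (Fin b) (Fin b) F) (w : Fin b → F) (c : F)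
    (x : Fin a × Fin b → F) :
    ((1 : Matrix (Fin a) (Fin a) F) ⊗ₖ tv J₂ w c) *ᵥ x = x + c • pt (cnt J₂ w x) w := by
  rw [tv, Matrix.kronecker_add, Matrix.kronecker_smul, Matrix.one_kronecker_one,
    Matrix.add_mulVec, Matrix.one_mulVec, Matrix.smul_mulVec, kron_rk_mulVec, Matrix.one_mulVec]

/-- The action of `Gm`. -/
theorem gm_mulVec (J₁ : Matrix (Fin a) (Fin a) F) (J₂ : Matrix (Fin b) (Fin b) F)
    (d w : Fin b → F) (A S : Matrix (Fin a) (Fin a) F) (x : Fin a × Fin b → F) :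
    Gm J₁ J₂ d w A S *ᵥ x = x + pt (A *ᵥ cnt J₂ d x) w + pt (adj J₁ A *ᵥ cnt J₂ w x) d
      + pt (S *ᵥ cnt J₂ d x) d := by
  rw [Gm, Matrix.add_mulVec, Matrix.add_mulVec, Matrix.add_mulVec, Matrix.one_mulVec,
    kron_rk_mulVec, kron_rk_mulVec, kron_rk_mulVec]

variable {J₁ : Matrix (Fin a) (Fin a) F} {J₂ : Matrix (Fin b) (Fin b) F}
  {Q : (Fin a × Fin b → F) → F}

/-- An isometry of `Q` preserves the tensor form. -/
theorem bf_isometry (hT : TQ J₁ J₂ Q) (g : GL (Fin a × Fin b) F) (hg : g ∈ isometryGroup F Q)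
    (v v' : Fin a × Fin b → F) :
    bf (J₁ ⊗ₖ J₂) (g.1 *ᵥ v) (g.1 *ᵥ v') = bf (J₁ ⊗ₖ J₂) v v' := by
  rw [← hT.polar, ← hT.polar]
  exact Cfsg.Agent.Helper97.Gen.polar_isometry hg v v'

/-- PIECE UISO -/
theorem uiso (hT : TQ J₁ J₂ Q) (g : GL (Fin a × Fin b) F) (hg : g ∈ isometryGroup F Q)
    (d dt w : Fin b → F) (hdd : bf J₂ dt d = 1) (hwd : bf J₂ w d = 0)
    (hU : InU J₂ d (g.1 - 1)) :
    ((1 : Matrix (Fin a) (Fin a) F) ⊗ₖ tv J₂ w 1) * g.1 *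
        ((1 : Matrix (Fin a) (Fin a) F) ⊗ₖ tv J₂ w (-1)) * (g⁻¹).1
      = Gm J₁ J₂ d w (blk (g.1 - 1) (J₂ *ᵥ w) dt)
          (-(adj J₁ (blk (g.1 - 1) (J₂ *ᵥ w) dt) * blk (g.1 - 1) (J₂ *ᵥ w) dt)) := by
  obtain ⟨hU1, hU2, hU3⟩ := hU
  have hdw : bf J₂ d w = 0 := by rw [bf_swap J₂ hT.alt₂, hwd, neg_zero]
  have hA : ∀ u, blk (g.1 - 1) (J₂ *ᵥ w) dt *ᵥ u = cnt J₂ w ((g.1 - 1) *ᵥ pt u dt) :=
    fun u => blk_mulVec_eq_cnt J₂ (g.1 - 1) w dt u
  generalize blk (g.1 - 1) (J₂ *ᵥ w) dt = A at hA ⊢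
  have hg1 : ∀ x, g.1 *ᵥ x = x + (g.1 - 1) *ᵥ x := by
    intro x
    rw [Matrix.sub_mulVec, Matrix.one_mulVec]
    abel
  generalize hZ : g.1 - 1 = Z at hA hg1 hU1 hU2 hU3
  -- KEY2
  have key2 : ∀ v, cnt J₂ w (Z *ᵥ v) = A *ᵥ cnt J₂ d v := by
    intro v
    have h0 : cnt J₂ d (v - pt (cnt J₂ d v) dt) = 0 := by
      rw [cnt_sub, cnt_pt, hdd, one_smul, sub_self]
    obtain ⟨u₁, hu₁⟩ := hU3 _ h0
    have hv : v = (v - pt (cnt J₂ d v) dt) + pt (cnt J₂ d v) dt := by abel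
    have h1 : Z *ᵥ v = pt u₁ d + Z *ᵥ pt (cnt J₂ d v) dt := by
      conv_lhs => rw [hv]
      rw [Matrix.mulVec_add, hu₁]
    rw [h1, cnt_add, cnt_pt, hdw, zero_smul, zero_add, hA]
  -- KEY1
  have key1 : ∀ c, Z *ᵥ pt c w = - pt (adj J₁ A *ᵥ c) d := by
    intro c
    have h0 : cnt J₂ d (pt c w) = 0 := by rw [cnt_pt, hwd, zero_smul]
    obtain ⟨u₁, hu₁⟩ := hU3 _ h0
    have h2 : u₁ + adj J₁ A *ᵥ c = 0 := by
      apply eq_zero_of_bf_right J₁ hT.alt₁ hT.det₁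
      intro u'
      have h3 := bf_isometry hT g hg (pt u' dt) (pt c w)
      rw [hg1 (pt c w), hu₁, bf_add_right, bf_kron_pt_right, bf_kron_pt_right, hg1 (pt u' dt),
        cnt_add, cnt_add, cnt_pt, cnt_pt, ← hA, hU2, hdd, one_smul, add_zero, bf_add_left,
        bf_smul_left, bf_kron_pt, bf_adj J₁ hT.det₁] at h3
      rw [bf_add_right]
      linear_combination h3
    have h4 : u₁ = - (adj J₁ A *ᵥ c) := eq_neg_of_add_eq_zero_left h2
    rw [hu₁, h4, pt_neg_left]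
  -- main identity on vectors
  have hmain : ((1 : Matrix (Fin a) (Fin a) F) ⊗ₖ tv J₂ w 1) * g.1 *
        ((1 : Matrix (Fin a) (Fin a) F) ⊗ₖ tv J₂ w (-1))
      = Gm J₁ J₂ d w A (-(adj J₁ A * A)) * g.1 := by
    apply Matrix.mulVec_injective
    funext v
    simp only [← Matrix.mulVec_mulVec]
    have e1 : ((1 : Matrix (Fin a) (Fin a) F) ⊗ₖ tv J₂ w (-1)) *ᵥ v
        = v - pt (cnt J₂ w v) w := by
      rw [one_kron_tv_mulVec, neg_one_smul, sub_eq_add_neg]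
    have e2 : g.1 *ᵥ (v - pt (cnt J₂ w v) w)
        = v - pt (cnt J₂ w v) w + Z *ᵥ v + pt (adj J₁ A *ᵥ cnt J₂ w v) d := by
      rw [hg1, Matrix.mulVec_sub, key1]
      abel
    have e3 : cnt J₂ w (v - pt (cnt J₂ w v) w + Z *ᵥ v + pt (adj J₁ A *ᵥ cnt J₂ w v) d)
        = cnt J₂ w v + A *ᵥ cnt J₂ d v := by
      rw [cnt_add, cnt_add, cnt_sub, cnt_pt, cnt_pt, key2, hT.alt₂ w, hdw, zero_smul, zero_smul,
        sub_zero, add_zero]
    have e4 : cnt J₂ d (v + Z *ᵥ v) = cnt J₂ d v := by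
      rw [cnt_add, hU2, add_zero]
    have e5 : cnt J₂ w (v + Z *ᵥ v) = cnt J₂ w v + A *ᵥ cnt J₂ d v := by
      rw [cnt_add, key2]
    rw [e1, e2, one_kron_tv_mulVec, e3, one_smul, hg1 v, gm_mulVec, e4, e5, Matrix.mulVec_add,
      Matrix.neg_mulVec, ← Matrix.mulVec_mulVec, pt_add_left, pt_add_left, pt_neg_left]
    abel
  rw [hmain, Matrix.mul_assoc]
  have hinv : g.1 * (g⁻¹).1 = 1 := by
    rw [← Units.val_mul, mul_inv_cancel, Units.val_one]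
  rw [hinv, Matrix.mul_one]

end Cfsg.Agent.Helper8.T5UISO
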